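import Mathlib

/-!
Anisotropic quadratic maps between elementary abelian 2-groups whose nonzero fibres all have the
same size: the source has the square order of the target, and there is no large commuting family
of involutive isometries.  (Used for Thompson's theorem on solvable groups with one class of
involutions.)
-/

set_option autoImplicit false

namespace Cfsg.Agent.OneInvClass.Forms

/-- A nontrivial `±1`-valued character of an additive group. -/
structure IsSign {W : Type*} [AddCommGroup W] (σ : W → ℤ) : Prop where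
  map_add : ∀ a b, σ (a + b) = σ a * σ b
  sq : ∀ a, σ a * σ a = 1
  nontriv : ∃ a, σ a ≠ 1

theorem IsSign.map_zero {W : Type*} [AddCommGroup W] {σ : W → ℤ} (h : IsSign σ) : σ 0 = 1 := by
  have h1 := h.map_add 0 0
  rw [add_zero, h.sq] at h1
  exact h1

theorem sum_eq_zero {W : Type*} [AddCommGroup W] [Fintype W] {σ : W → ℤ}
    (hadd : ∀ a b, σ (a + b) = σ a * σ b) {a : W} (ha : σ a ≠ 1) : ∑ w, σ w = 0 := by
  have h1 : ∑ w, σ w = σ a * ∑ w, σ w := by
    rw [Finset.mul_sum, ← Equiv.sum_comp (Equiv.addLeft a) σ]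
    simp [hadd]
  have h2 : (σ a - 1) * ∑ w, σ w = 0 := by rw [sub_mul, one_mul, ← h1, sub_self]
  exact (mul_eq_zero.mp h2).resolve_left (sub_ne_zero.mpr ha)

theorem zmod_two_cases : ∀ z : ZMod 2, z = 0 ∨ z = 1 := by decide

/-- A proper subgroup of a finite elementary abelian 2-group is killed by a sign character. -/
theorem exists_sign {W : Type*} [AddCommGroup W] [Finite W] (h2 : ∀ w : W, w + w = 0)
    {H : AddSubgroup W} (hH : H ≠ ⊤) : ∃ σ : W → ℤ, IsSign σ ∧ ∀ w ∈ H, σ w = 1 := by
  classical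
  haveI : Fact (Nat.Prime 2) := ⟨Nat.prime_two⟩
  letI : Module (ZMod 2) W := AddCommGroup.zmodModule (fun w => by rw [two_nsmul]; exact h2 w)
  let p : Submodule (ZMod 2) W := AddSubgroup.toZModSubmodule 2 H
  have hp : p ≠ ⊤ := fun h => hH (by
    rw [eq_top_iff]; intro w _
    have : w ∈ p := h ▸ Submodule.mem_top
    exact this)
  obtain ⟨f, hf, hle⟩ := p.exists_le_ker_of_lt_top (lt_top_iff_ne_top.mpr hp)
  refine ⟨fun w => if f w = (0 : ZMod 2) then (1 : ℤ) else -1, ⟨?_, ?_, ?_⟩, ?_⟩
  · intro a b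
    rw [map_add]
    rcases zmod_two_cases (f a) with ha | ha <;> rcases zmod_two_cases (f b) with hb | hb <;> rw [ha, hb] <;>
      simp [show (1 : ZMod 2) + 1 = 0 from rfl]
  · intro a; split_ifs <;> norm_num
  · by_contra hne
    push Not at hne
    refine hf (LinearMap.ext fun w => ?_)
    have h := hne w
    rw [LinearMap.zero_apply]
    by_contra hw
    rw [if_neg hw] at h
    norm_num at h
  · intro w hw
    exact if_pos (LinearMap.mem_ker.mp (hle hw))

theorem arith {n m k : ℕ} (hn : 2 ≤ n) (h : 2 ^ m = 1 + (2 ^ n - 1) * (2 ^ k + 1))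
    (hmk : m ≤ 2 * k) : k = n ∧ m = 2 * n := by
  obtain ⟨a, ha⟩ : ∃ a, 2 ^ n = a + 1 :=
    ⟨2 ^ n - 1, (Nat.sub_add_cancel Nat.one_le_two_pow).symm⟩
  have ha3 : 3 ≤ a := by
    have : 2 ^ 2 ≤ 2 ^ n := Nat.pow_le_pow_right (by norm_num) hn
    omega
  rw [ha, Nat.add_sub_cancel] at h
  have hsum : 2 ^ m + 2 ^ k = 2 ^ (n + k) + 2 ^ n := by rw [pow_add, ha, h]; ring
  have h1 : n + k ≤ m := by
    by_contra hlt
    push Not at hlt
    have h2 : 2 * 2 ^ m ≤ 2 ^ (n + k) := by
      rw [← pow_succ']; exact Nat.pow_le_pow_right (by norm_num) hlt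
    have h3 : 2 ^ (n + k) = (a + 1) * 2 ^ k := by rw [pow_add, ha]
    nlinarith [Nat.one_le_two_pow (n := k)]
  have hkn : n ≤ k := by omega
  have hk : k ≤ n := by
    have h2 : 2 ^ (n + k) ≤ 2 ^ m := Nat.pow_le_pow_right (by norm_num) h1
    exact (Nat.pow_le_pow_iff_right (by norm_num : 1 < 2)).mp (by omega)
  obtain rfl : k = n := le_antisymm hk hkn
  exact ⟨rfl, by omega⟩

/-- The standing hypotheses. -/
structure Data (V W : Type*) [AddCommGroup V] [AddCommGroup W] where
  q : V → W
  b : V →+ V →+ W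
  hV : ∀ v : V, v + v = 0
  hW : ∀ w : W, w + w = 0
  map_add : ∀ u v, q (u + v) = q u + q v + b u v
  aniso : ∀ u, q u = 0 → u = 0
  fib : ∀ z z' : W, z ≠ 0 → z' ≠ 0 →
    Nat.card {v : V // q v = z} = Nat.card {v : V // q v = z'}
  noninj : ∃ u v, u ≠ v ∧ q u = q v
  big : 4 ≤ Nat.card W

variable {V W : Type*} [AddCommGroup V] [AddCommGroup W]

theorem Data.neg_eq (D : Data V W) (v : V) : -v = v := neg_eq_of_add_eq_zero_left (D.hV v)

theorem Data.q_zero (D : Data V W) : D.q 0 = 0 := by
  have h := D.map_add 0 0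
  rw [add_zero, _root_.map_zero, add_zero] at h
  exact left_eq_add.mp h

theorem Data.b_self (D : Data V W) (v : V) : D.b v v = 0 := by
  have h := D.map_add v v
  rw [D.hV, D.q_zero, D.hW, zero_add] at h
  exact h.symm

theorem Data.b_comm (D : Data V W) (u v : V) : D.b u v = D.b v u := by
  have h := D.map_add u v
  rw [add_comm u v, D.map_add v u, add_comm (D.q v) (D.q u)] at h
  exact (add_left_cancel h).symm

theorem exists_card {X : Type*} [AddCommGroup X] [Finite X] (h : ∀ x : X, x + x = 0) :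
    ∃ n, Nat.card X = 2 ^ n := by
  haveI : Fact (Nat.Prime 2) := ⟨Nat.prime_two⟩
  have : IsPGroup 2 (Multiplicative X) := fun x => ⟨1, by
    rw [pow_one, sq]
    exact h (Multiplicative.toAdd x)⟩
  obtain ⟨n, hn⟩ := this.exists_card_eq
  exact ⟨n, by rw [← hn, Nat.card_congr (Multiplicative.ofAdd (α := X))]⟩

/-- The source has the square order of the target and every nonzero `b x` is surjective. -/
theorem Data.shape [Finite V] [Finite W] (D : Data V W) :
    Nat.card V = Nat.card W ^ 2 ∧ ∀ x, x ≠ 0 → Function.Surjective (D.b x) := by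
  classical
  haveI := Fintype.ofFinite V
  haveI := Fintype.ofFinite W
  obtain ⟨n, hn⟩ := exists_card D.hW
  obtain ⟨m, hm⟩ := exists_card D.hV
  have hn2 : 2 ≤ n := by
    by_contra h
    have := D.big
    rw [hn] at this
    interval_cases n <;> norm_num at this
  obtain ⟨u₀, v₀, hne, huv⟩ := D.noninj
  set z₀ := D.q u₀ with hz₀
  have hz₀0 : z₀ ≠ 0 := fun h => hne ((D.aniso _ h).trans (D.aniso _ (huv ▸ h)).symm)
  set c := (Finset.univ.filter fun v => D.q v = z₀).card with hc
  have hfib : ∀ z, z ≠ 0 → (Finset.univ.filter fun v => D.q v = z).card = c := by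
    intro z hz
    have h := D.fib z z₀ hz hz₀0
    simpa [Nat.card_eq_fintype_card, Fintype.card_subtype] using h
  have hzero : (Finset.univ.filter fun v => D.q v = 0).card = 1 := by
    rw [Finset.card_eq_one]
    refine ⟨0, Finset.ext fun v => ?_⟩
    simp only [Finset.mem_filter, Finset.mem_univ, true_and, Finset.mem_singleton]
    exact ⟨D.aniso v, fun h => h ▸ D.q_zero⟩
  have hsum : ∀ f : W → ℤ, ∑ v, f (D.q v) = f 0 + c * (∑ z ∈ Finset.univ.erase 0, f z) := by
    intro f
    rw [← Finset.sum_fiberwise (Finset.univ : Finset V) D.q (fun v => f (D.q v)),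
      ← Finset.add_sum_erase _ _ (Finset.mem_univ (0 : W)), Finset.mul_sum]
    congr 1
    · rw [Finset.sum_congr rfl (fun v hv => by rw [(Finset.mem_filter.mp hv).2]),
        Finset.sum_const, hzero, one_smul]
    · refine Finset.sum_congr rfl fun z hz => ?_
      rw [Finset.sum_congr rfl (fun v hv => by rw [(Finset.mem_filter.mp hv).2]),
        Finset.sum_const, hfib z (Finset.ne_of_mem_erase hz), nsmul_eq_mul]
  have hcount : (Nat.card V : ℤ) = 1 + c * ((Nat.card W : ℤ) - 1) := by
    have h := hsum fun _ => 1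
    simpa [Nat.card_eq_fintype_card, Finset.card_erase_of_mem, Nat.cast_sub Fintype.card_pos] using h
  have hc2 : 2 ≤ c := by
    refine le_trans ?_ (Finset.card_le_card (s := {u₀, v₀}) ?_)
    · rw [Finset.card_pair hne]
    · intro v hv
      simp only [Finset.mem_insert, Finset.mem_singleton] at hv
      rcases hv with rfl | rfl <;> simp [z₀, huv]
  -- the square of a character sum
  have key : ∀ σ : W → ℤ, IsSign σ →
      ((c : ℤ) - 1) ^ 2 =
        Nat.card V * (Finset.univ.filter fun w => ∀ v, σ (D.b v w) = 1).card := by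
    intro σ hσ
    have hs : ∑ v, σ (D.q v) = 1 - c := by
      have h0 := sum_eq_zero hσ.map_add hσ.nontriv.choose_spec
      rw [← Finset.add_sum_erase _ _ (Finset.mem_univ (0 : W)), hσ.map_zero] at h0
      rw [hsum σ, hσ.map_zero, show (∑ z ∈ Finset.univ.erase 0, σ z) = -1 by linarith]
      ring
    set R := Finset.univ.filter fun w => ∀ v, σ (D.b v w) = 1 with hR
    have hR1 : ∀ w ∈ R, σ (D.q w) = 1 := by
      intro w hw
      by_contra hne1
      have hw' := (Finset.mem_filter.mp hw).2
      have h1 : ∑ v, σ (D.q v) = σ (D.q w) * ∑ v, σ (D.q v) := by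
        conv_lhs => rw [← Equiv.sum_comp (Equiv.addRight w) (fun v => σ (D.q v))]
        rw [Finset.mul_sum]
        refine Finset.sum_congr rfl fun v _ => ?_
        simp only [Equiv.coe_addRight]
        rw [D.map_add, hσ.map_add, hσ.map_add, hw' v, mul_one, mul_comm]
      have h2 : (σ (D.q w) - 1) * ∑ v, σ (D.q v) = 0 := by rw [sub_mul, one_mul, ← h1, sub_self]
      have h3 := (mul_eq_zero.mp h2).resolve_left (sub_ne_zero.mpr hne1)
      rw [hs] at h3
      omega
    calc ((c : ℤ) - 1) ^ 2 = (∑ v, σ (D.q v)) * ∑ w, σ (D.q w) := by rw [hs]; ring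
      _ = ∑ v, ∑ w, σ (D.q v) * σ (D.q (v + w)) := by
          rw [Finset.sum_mul]
          refine Finset.sum_congr rfl fun v _ => ?_
          rw [← Equiv.sum_comp (Equiv.addLeft v) (fun w => σ (D.q w)), Finset.mul_sum]
          simp
      _ = ∑ v, ∑ w, σ (D.q w) * σ (D.b v w) := by
          refine Finset.sum_congr rfl fun v _ => Finset.sum_congr rfl fun w _ => ?_
          rw [D.map_add, hσ.map_add, hσ.map_add, ← mul_assoc, ← mul_assoc, hσ.sq, one_mul]
      _ = ∑ w, σ (D.q w) * ∑ v, σ (D.b v w) := by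
          rw [Finset.sum_comm]; simp [Finset.mul_sum]
      _ = ∑ w, (if w ∈ R then (Nat.card V : ℤ) else 0) := by
          refine Finset.sum_congr rfl fun w _ => ?_
          split_ifs with hw
          · rw [hR1 w hw, one_mul,
              Finset.sum_congr rfl fun v _ => (Finset.mem_filter.mp hw).2 v]
            simp [Nat.card_eq_fintype_card]
          · obtain ⟨v, hv⟩ : ∃ v, σ (D.b v w) ≠ 1 := by
              by_contra h
              push Not at h
              exact hw (Finset.mem_filter.mpr ⟨Finset.mem_univ _, h⟩)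
            rw [sum_eq_zero (σ := fun v => σ (D.b v w)) (fun a b => by
              rw [_root_.map_add, AddMonoidHom.add_apply, hσ.map_add]) hv, mul_zero]
      _ = (Nat.card V : ℤ) * R.card := by
          rw [Finset.sum_ite_mem, Finset.univ_inter, Finset.sum_const, nsmul_eq_mul, mul_comm]
  obtain ⟨σ₀, hσ₀, -⟩ := exists_sign D.hW (H := ⊥) (by
    intro h
    have : Nat.card W = 1 := by
      rw [← AddSubgroup.card_top (G := W), ← h, AddSubgroup.card_bot]
    have := D.big
    omega)
  have hkey := key σ₀ hσ₀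
  set r := (Finset.univ.filter fun w => ∀ v, σ₀ (D.b v w) = 1).card with hr
  have hr0 : 1 ≤ r := Finset.card_pos.mpr ⟨0, Finset.mem_filter.mpr
    ⟨Finset.mem_univ _, fun v => by rw [map_zero]; exact hσ₀.map_zero⟩⟩
  obtain ⟨c', hc'⟩ : ∃ c', c = c' + 1 := ⟨c - 1, by omega⟩
  have hkey' : c' ^ 2 = 2 ^ m * r := by
    have : ((c' ^ 2 : ℕ) : ℤ) = ((2 ^ m * r : ℕ) : ℤ) := by
      push_cast
      rw [hc', hm] at hkey
      push_cast at hkey
      simpa using hkey
    exact_mod_cast this
  obtain ⟨i, hri⟩ : ∃ i, r = 2 ^ i := by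
    let R : AddSubgroup V :=
      { carrier := {w | ∀ v, σ₀ (D.b v w) = 1}
        zero_mem' := fun v => by rw [map_zero]; exact hσ₀.map_zero
        add_mem' := fun {x y} hx hy v => by rw [_root_.map_add, hσ₀.map_add, hx v, hy v, one_mul]
        neg_mem' := fun {x} hx v => by rw [D.neg_eq]; exact hx v }
    obtain ⟨i, hi⟩ := exists_card (X := R) (fun x => Subtype.ext (D.hV x))
    refine ⟨i, ?_⟩
    rw [← hi, hr, Nat.card_eq_fintype_card]
    exact (Fintype.card_of_subtype _ fun w => by
      simp only [Finset.mem_filter, Finset.mem_univ, true_and]; rfl).symm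
  obtain ⟨k, -, hk⟩ := (Nat.dvd_prime_pow Nat.prime_two).mp
    (show c' ∣ 2 ^ (m + i) from ⟨c', by rw [← sq, hkey', hri, pow_add]⟩)
  have hmk : m ≤ 2 * k := by
    rw [hk, hri, ← pow_mul, ← pow_add] at hkey'
    have := Nat.pow_right_injective le_rfl hkey'
    omega
  have hnat : 2 ^ m = 1 + (2 ^ n - 1) * (2 ^ k + 1) := by
    have : ((2 ^ m : ℕ) : ℤ) = ((1 + (2 ^ n - 1) * (2 ^ k + 1) : ℕ) : ℤ) := by
      push_cast [Nat.one_le_two_pow]
      rw [hm, hn, hc', hk] at hcount
      push_cast at hcount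
      linarith
    exact_mod_cast this
  obtain ⟨hkn, hmn⟩ := arith hn2 hnat hmk
  refine ⟨by rw [hm, hn, hmn, ← pow_mul, mul_comm], fun x hx => ?_⟩
  by_contra hns
  obtain ⟨σ, hσ, hσH⟩ := exists_sign D.hW (H := (D.b x).range) (fun h =>
    hns (AddMonoidHom.range_eq_top.mp h))
  have hk2 := key σ hσ
  set S := Finset.univ.filter fun w => ∀ v, σ (D.b v w) = 1 with hS
  have hS2 : 2 ≤ S.card := by
    refine le_trans ?_ (Finset.card_le_card (s := {0, x}) ?_)
    · rw [Finset.card_pair hx.symm]
    · intro v hv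
      simp only [Finset.mem_insert, Finset.mem_singleton] at hv
      refine Finset.mem_filter.mpr ⟨Finset.mem_univ _, fun u => ?_⟩
      rcases hv with rfl | rfl
      · rw [map_zero]; exact hσ.map_zero
      · rw [D.b_comm]; exact hσH _ ⟨u, rfl⟩
  rw [hc', hm, hk, hmn, hkn] at hk2
  push_cast at hk2
  have hk3 : (2 : ℤ) ^ (2 * n) * 1 = 2 ^ (2 * n) * S.card := by
    rw [mul_one, ← hk2]; ring
  have := mul_left_cancel₀ (by positivity) hk3
  omega

/-- An involutive additive map preserving `q`. -/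
structure IsInvo (D : Data V W) (f : V →+ V) : Prop where
  isom : ∀ v, D.q (f v) = D.q v
  invol : ∀ v, f (f v) = v

theorem IsInvo.comp {D : Data V W} {f g : V →+ V} (hf : IsInvo D f) (hg : IsInvo D g)
    (h : ∀ v, f (g v) = g (f v)) : IsInvo D (f.comp g) := by
  constructor
  · intro v; simp [hf.isom, hg.isom]
  · intro v
    simp only [AddMonoidHom.comp_apply]
    rw [← h (g v), hg.invol, hf.invol]

theorem IsInvo.b_map {D : Data V W} {f : V →+ V} (hf : IsInvo D f) (u v : V) :
    D.b (f u) (f v) = D.b u v := by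
  have h := D.map_add (f u) (f v)
  rw [← _root_.map_add, hf.isom, hf.isom, hf.isom, D.map_add] at h
  exact (add_left_cancel h).symm

/-- The facts about one involutive isometry. -/
theorem IsInvo.fixed [Finite V] [Finite W] {D : Data V W} {f : V →+ V} (hf : IsInvo D f)
    (hne : ∃ v, f v ≠ v) :
    (∀ v, f (v + f v) = v + f v) ∧
    Nat.card {v // f v = v} = Nat.card W ∧
    ∀ x, x ≠ 0 → f x = x → ∀ v, D.b x v = 0 ↔ f v = v := by
  obtain ⟨hsq, hsurj⟩ := D.shape
  set φ : V →+ V := AddMonoidHom.id V + f with hφ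
  have hker : ∀ v, v ∈ φ.ker ↔ f v = v := fun v => by
    rw [AddMonoidHom.mem_ker]
    simp only [φ, AddMonoidHom.add_apply, AddMonoidHom.id_apply]
    constructor
    · intro h; rw [eq_neg_of_add_eq_zero_right h, D.neg_eq]
    · intro h; rw [h]; exact D.hV v
  have hfix : ∀ v, f (v + f v) = v + f v := fun v => by rw [_root_.map_add, hf.invol, add_comm]
  have hTW : φ.range ≤ φ.ker := by
    rintro _ ⟨v, rfl⟩
    exact (hker _).mpr (hfix v)
  have horth : ∀ x ∈ φ.range, φ.ker ≤ (D.b x).ker := by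
    rintro _ ⟨u, rfl⟩ w hw
    rw [hker] at hw
    rw [AddMonoidHom.mem_ker]
    simp only [φ, AddMonoidHom.add_apply, AddMonoidHom.id_apply]
    rw [_root_.map_add, AddMonoidHom.add_apply]
    rw [show D.b (f u) w = D.b u w by conv_lhs => rw [← hw]
                                      exact hf.b_map u w, D.hW]
  have hK : ∀ x, x ≠ 0 → Nat.card (D.b x).ker = Nat.card W := by
    intro x hx
    have h := AddSubgroup.card_eq_card_quotient_mul_card_addSubgroup (D.b x).ker
    rw [Nat.card_congr (QuotientAddGroup.quotientKerEquivOfSurjective (D.b x) (hsurj x hx)).toEquiv,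
      hsq, sq] at h
    exact (Nat.eq_of_mul_eq_mul_left Nat.card_pos h).symm
  obtain ⟨v₀, hv₀⟩ := hne
  have hx₀ : φ v₀ ≠ 0 := fun h => hv₀ ((hker v₀).mp h)
  have hW : Nat.card φ.ker ≤ Nat.card W :=
    hK _ hx₀ ▸ AddSubgroup.card_le_of_le (horth _ ⟨v₀, rfl⟩)
  have hmul : Nat.card φ.range * Nat.card φ.ker = Nat.card W * Nat.card W := by
    rw [← sq, ← hsq, AddSubgroup.card_eq_card_quotient_mul_card_addSubgroup φ.ker,
      Nat.card_congr (QuotientAddGroup.quotientKerEquivRange φ).toEquiv]
  have hT : Nat.card φ.range ≤ Nat.card φ.ker := AddSubgroup.card_le_of_le hTW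
  have hKW : Nat.card φ.ker = Nat.card W := by nlinarith
  have heq : φ.range = φ.ker := by
    refine AddSubgroup.eq_of_le_of_card_ge hTW ?_
    rw [hKW] at hmul ⊢
    exact le_of_eq (Nat.eq_of_mul_eq_mul_right Nat.card_pos hmul).symm
  refine ⟨hfix, ?_, fun x hx hfx v => ?_⟩
  · rw [← hKW]
    exact Nat.card_congr (Equiv.subtypeEquivRight fun v => (hker v).symm)
  · have hle := horth x (heq ▸ (hker x).mpr hfx)
    have := AddSubgroup.eq_of_le_of_card_ge hle (by rw [hK x hx, hKW])
    rw [← hker, this, AddMonoidHom.mem_ker]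

theorem IsInvo.fix_eq [Finite V] [Finite W] {D : Data V W} {f g : V →+ V}
    (hf : IsInvo D f) (hg : IsInvo D g) (hfn : ∃ v, f v ≠ v) (hgn : ∃ v, g v ≠ v)
    (h : ∀ v, f (g v) = g (f v)) (v : V) : f v = v ↔ g v = v := by
  obtain ⟨-, hcard, hperp⟩ := hf.fixed hfn
  obtain ⟨hfixg, -, hperpg⟩ := hg.fixed hgn
  obtain ⟨w, hw, hw0⟩ : ∃ w, f w = w ∧ w ≠ 0 := by
    by_contra hno
    push Not at hno
    haveI : Subsingleton {v // f v = v} :=
      ⟨fun a b => Subtype.ext ((hno a a.2).trans (hno b b.2).symm)⟩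
    have h1 : Nat.card {v // f v = v} ≤ 1 := Finite.card_le_one_iff_subsingleton.mpr inferInstance
    have := D.big
    omega
  obtain ⟨x, hx0, hfx, hgx⟩ : ∃ x, x ≠ 0 ∧ f x = x ∧ g x = x := by
    by_cases hwg : w + g w = 0
    · exact ⟨w, hw0, hw, by rw [eq_neg_of_add_eq_zero_right hwg, D.neg_eq]⟩
    · exact ⟨w + g w, hwg, by rw [_root_.map_add, h, hw], hfixg w⟩
  rw [← hperp x hx0 hfx, hperpg x hx0 hgx]

/-- There is no family of commuting involutive isometries, indexed by the target, whose nonzero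
members are nontrivial and distinct. -/
theorem no_family [Finite V] [Finite W] (D : Data V W) (F : W → (V →+ V))
    (hF : ∀ z, IsInvo D (F z)) (hcomm : ∀ z z' v, F z (F z' v) = F z' (F z v))
    (h0 : ∀ v, F 0 v = v) (hinj : ∀ z z', (∀ v, F z v = F z' v) → z = z') : False := by
  classical
  obtain ⟨hsq, -⟩ := D.shape
  haveI : Nontrivial W := Finite.one_lt_card_iff_nontrivial.mp (by have := D.big; omega)
  obtain ⟨z₁, hz₁⟩ := exists_ne (0 : W)
  have hne : ∀ z, z ≠ 0 → ∃ v, F z v ≠ v := fun z hz => by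
    by_contra h
    push Not at h
    exact hz (hinj z 0 fun v => by rw [h v, h0])
  obtain ⟨hfix, hcard, hperp⟩ := (hF z₁).fixed (hne z₁ hz₁)
  set K : Set V := {v | F z₁ v = v} with hK
  have hmove : ∀ z v, F z v + v ∈ K := by
    intro z v
    by_cases hz : z = 0
    · subst hz; rw [h0, D.hV]; exact map_zero _
    · show F z₁ (F z v + v) = F z v + v
      rw [add_comm (F z v) v]
      exact ((hF z).fix_eq (hF z₁) (hne z hz) (hne z₁ hz₁) (hcomm z z₁) _).mp
        (((hF z).fixed (hne z hz)).1 v)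
  have horbit : ∀ u, u ∉ K → ∀ x ∈ K, ∃ z, F z u = u + x := by
    intro u hu x hx
    let f : W → K := fun z => ⟨F z u + u, hmove z u⟩
    have finj : Function.Injective f := by
      intro z z' h
      have h' : F z u = F z' u := add_right_cancel (congrArg Subtype.val h)
      by_contra hzz
      have hn : ∃ v, ((F z).comp (F z')) v ≠ v := by
        by_contra hall
        push Not at hall
        refine hzz (hinj z z' fun v => ?_)
        have := hall (F z' v)
        rw [AddMonoidHom.comp_apply, (hF z').invol] at this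
        exact this
      have hc : IsInvo D ((F z).comp (F z')) := (hF z).comp (hF z') (hcomm z z')
      refine hu ((hc.fix_eq (hF z₁) hn (hne z₁ hz₁) (fun v => ?_) u).mp ?_)
      · simp only [AddMonoidHom.comp_apply]; rw [hcomm z' z₁, hcomm z z₁]
      · simp only [AddMonoidHom.comp_apply]; rw [← h', (hF z).invol]
    have fbij : Function.Bijective f :=
      finj.bijective_of_nat_card_le (by rw [← hcard]; exact le_of_eq rfl)
    obtain ⟨z, hz⟩ := fbij.2 ⟨x, hx⟩
    refine ⟨z, ?_⟩
    have h' : F z u + u = x := congrArg Subtype.val hz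
    rw [← h', add_comm u, add_assoc, D.hV, add_zero]
  have hlin : ∀ u, u ∉ K → ∀ x ∈ K, D.q x + D.b u x = 0 := by
    intro u hu x hx
    obtain ⟨z, hz⟩ := horbit u hu x hx
    have h := (hF z).isom u
    rw [hz, D.map_add, add_assoc, add_eq_left] at h
    exact h
  haveI : Nontrivial {v // F z₁ v = v} :=
    Finite.one_lt_card_iff_nontrivial.mp (by rw [hcard]; have := D.big; omega)
  obtain ⟨x, hx⟩ := exists_ne (⟨0, map_zero _⟩ : {v // F z₁ v = v})
  have hx0 : (x : V) ≠ 0 := fun h => hx (Subtype.ext h)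
  obtain ⟨u, hu⟩ := hne z₁ hz₁
  obtain ⟨u', hu', huu⟩ : ∃ u', u' ∉ K ∧ u + u' ∉ K := by
    by_contra hno
    push Not at hno
    have hle : Nat.card V ≤ Nat.card (K ⊕ K) := by
      refine Nat.card_le_card_of_injective (fun v =>
        if hv : v ∈ K then Sum.inl ⟨v, hv⟩ else Sum.inr ⟨u + v, hno v hv⟩) ?_
      intro a b hab
      dsimp only at hab
      split_ifs at hab with ha hb <;> simp_all
    rw [Nat.card_sum, show Nat.card K = Nat.card W from hcard, hsq] at hle
    have := D.big
    nlinarith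
  have e1 := hlin u hu x x.2
  have e2 := hlin u' hu' x x.2
  have e3 := hlin (u + u') huu x x.2
  rw [_root_.map_add, AddMonoidHom.add_apply, eq_neg_of_add_eq_zero_right e1,
    eq_neg_of_add_eq_zero_right e2] at e3
  refine hx0 (D.aniso _ ?_)
  have : D.q (x : V) + (-D.q x + -D.q x) = -D.q x := by abel
  rw [this, neg_eq_zero] at e3
  exact e3

end Cfsg.Agent.OneInvClass.Forms
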