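import Mathlib
import Cfsg.Agent.OneInvClass.Forms
import Cfsg.Prelude.Def_Solvable

/-!
The local configuration in Thompson's theorem on solvable groups with one class of involutions:
an odd subgroup `P` centralising all involutions and moving a 2-group `Q`, with a normalising
family of square roots of all involutions, does not exist.
-/

set_option autoImplicit false
open Subgroup
open scoped commutatorElement

namespace Cfsg.Agent.OneInvClass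

variable {G : Type*} [Group G]

theorem comm_of_sq {N : Subgroup G} (h : ∀ x ∈ N, x ^ 2 = 1) {x y : G} (hx : x ∈ N) (hy : y ∈ N) :
    x * y = y * x := by
  have hx2 : x⁻¹ = x := inv_eq_of_mul_eq_one_right (by rw [← sq, h x hx])
  have hy2 : y⁻¹ = y := inv_eq_of_mul_eq_one_right (by rw [← sq, h y hy])
  have h2 : (x * y)⁻¹ = x * y :=
    inv_eq_of_mul_eq_one_right (by rw [← sq, h _ (mul_mem hx hy)])
  rw [mul_inv_rev, hx2, hy2] at h2
  exact h2.symm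

/-- The configuration. -/
structure Cfg (G : Type*) [Group G] where
  N : Subgroup G
  P : Subgroup G
  Q : Subgroup G
  normalN : N.Normal
  normalQ : Q.Normal
  sq : ∀ x ∈ N, x ^ 2 = 1
  all : ∀ z : G, z ^ 2 = 1 → z ∈ N
  big : 4 ≤ Nat.card N
  pgQ : IsPGroup 2 Q
  r : ℕ
  primeR : r.Prime
  r_ne : r ≠ 2
  pgP : IsPGroup r P
  centN : N ≤ centralizer (P : Set G)
  centQ : ∀ g ∈ Q, ∀ z ∈ N, g * z = z * g
  sqQ : ∀ g ∈ Q, g ^ 2 ∈ centralizer (P : Set G)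
  notCent : ¬ Q ≤ centralizer (P : Set G)
  trans : ∀ z ∈ N, ∀ z' ∈ N, z ≠ 1 → z' ≠ 1 → ∃ l ∈ normalizer (P : Set G), l * z * l⁻¹ = z'

namespace Cfg

variable (c : Cfg G)

/-- `Q₁ = [Q, P]`. -/
def Q1 : Subgroup G := ⁅c.Q, c.P⁆

/-- `D₁ = C_{Q₁}(P)`. -/
def D1 : Subgroup G := c.Q1 ⊓ centralizer (c.P : Set G)

theorem Q1_le : c.Q1 ≤ c.Q :=
  haveI := c.normalQ
  commutator_le_left _ _

theorem mem_cent {g : G} (hg : g ∈ centralizer (c.P : Set G)) {π : G} (hπ : π ∈ c.P) :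
    π * g * π⁻¹ = g := by
  rw [mem_centralizer_iff.mp hg π hπ, mul_inv_cancel_right]

theorem conj_mem_Q1 {l : G} (hl : l ∈ normalizer (c.P : Set G)) {g : G} (hg : g ∈ c.Q1) :
    l * g * l⁻¹ ∈ c.Q1 := by
  haveI := c.normalQ
  have h : (c.Q1).map (MulAut.conj l).toMonoidHom ≤ c.Q1 := by
    rw [Q1, map_commutator]
    refine commutator_mono ?_ ?_
    · rintro _ ⟨x, hx, rfl⟩; exact c.normalQ.conj_mem x hx l
    · rintro _ ⟨x, hx, rfl⟩; exact (mem_normalizer_iff.mp hl x).mp hx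
  exact h ⟨g, hg, rfl⟩

theorem conj_mem_cent {l : G} (hl : l ∈ normalizer (c.P : Set G)) {g : G}
    (hg : g ∈ centralizer (c.P : Set G)) : l * g * l⁻¹ ∈ centralizer (c.P : Set G) := by
  rw [mem_centralizer_iff] at hg ⊢
  intro π hπ
  have h' : l⁻¹ * π * l ∈ c.P := (mem_normalizer_iff''.mp hl π).mp hπ
  calc π * (l * g * l⁻¹) = l * ((l⁻¹ * π * l) * g) * l⁻¹ := by group
    _ = l * (g * (l⁻¹ * π * l)) * l⁻¹ := by rw [hg _ h']
    _ = l * g * l⁻¹ * π := by group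

theorem conj_mem_D1 {l : G} (hl : l ∈ normalizer (c.P : Set G)) {g : G} (hg : g ∈ c.D1) :
    l * g * l⁻¹ ∈ c.D1 :=
  ⟨c.conj_mem_Q1 hl hg.1, c.conj_mem_cent hl hg.2⟩

theorem commutator_mem_cent {g h : G} (hg : g ∈ c.Q) (hh : h ∈ c.Q) :
    ⁅g, h⁆ ∈ centralizer (c.P : Set G) := by
  have e : ⁅g, h⁆ = g ^ 2 * (g⁻¹ * h) ^ 2 * (h ^ 2)⁻¹ := by
    simp only [commutatorElement_def, pow_two]; group
  rw [e]
  exact mul_mem (mul_mem (c.sqQ g hg) (c.sqQ _ (mul_mem (inv_mem hg) hh))) (inv_mem (c.sqQ h hh))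

theorem gen_mem {g π : G} (hg : g ∈ c.Q1) (hπ : π ∈ c.P) : π * g * π⁻¹ ∈ c.Q1 :=
  c.conj_mem_Q1 (le_normalizer hπ) hg

/-- `Q = [Q,P] C_Q(P)`. -/
theorem exists_mul [Finite G] {g : G} (hg : g ∈ c.Q) :
    ∃ g₁ ∈ c.Q1, ∃ d ∈ c.Q, d ∈ centralizer (c.P : Set G) ∧ g = g₁ * d := by
  classical
  haveI := c.normalQ
  haveI : Fact (Nat.Prime 2) := ⟨Nat.prime_two⟩
  have hmove : ∀ π ∈ c.P, ∀ q ∈ c.Q1, π * (q * g) * π⁻¹ * g⁻¹ ∈ c.Q1 := by
    intro π hπ q hq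
    have e : π * (q * g) * π⁻¹ * g⁻¹ = (π * q * π⁻¹) * (π * g * π⁻¹ * g⁻¹) := by group
    rw [e]
    refine mul_mem (c.gen_mem hq hπ) ?_
    have e2 : π * g * π⁻¹ * g⁻¹ = (⁅g, π⁆)⁻¹ := by simp [commutatorElement_def, mul_assoc]
    rw [e2]
    exact inv_mem (commutator_mem_commutator hg hπ)
  let act : c.P → c.Q1 → c.Q1 := fun π q => ⟨(π : G) * (q * g) * (π : G)⁻¹ * g⁻¹, hmove π π.2 q q.2⟩
  letI : MulAction c.P c.Q1 :=
    { smul := act
      one_smul := fun q => Subtype.ext (by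
        show ((1 : c.P) : G) * (q * g) * ((1 : c.P) : G)⁻¹ * g⁻¹ = q
        simp)
      mul_smul := fun π σ q => Subtype.ext (by
        show ((π * σ : c.P) : G) * (q * g) * ((π * σ : c.P) : G)⁻¹ * g⁻¹ =
          (π : G) * (((σ : G) * (q * g) * (σ : G)⁻¹ * g⁻¹) * g) * (π : G)⁻¹ * g⁻¹
        simp only [Subgroup.coe_mul]; group) }
  -- an `r`-group acting on a set of 2-power size has a fixed point
  haveI := Fact.mk c.primeR
  obtain ⟨n, hn⟩ := (c.pgQ.to_le c.Q1_le).exists_card_eq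
  have hnd : ¬ c.r ∣ Nat.card c.Q1 := by
    rw [hn]
    intro h
    exact c.r_ne ((Nat.prime_dvd_prime_iff_eq c.primeR Nat.prime_two).mp (c.primeR.dvd_of_dvd_pow h))
  obtain ⟨q, hq⟩ := c.pgP.nonempty_fixed_point_of_prime_not_dvd_card c.Q1 hnd
  have hqg : (q : G) * g ∈ centralizer (c.P : Set G) := by
    rw [mem_centralizer_iff]
    intro π hπ
    have h := congrArg Subtype.val (hq ⟨π, hπ⟩)
    change π * ((q : G) * g) * π⁻¹ * g⁻¹ = q at h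
    rw [mul_inv_eq_iff_eq_mul, mul_inv_eq_iff_eq_mul] at h
    exact h
  exact ⟨(q : G)⁻¹, inv_mem q.2, q * g, mul_mem (c.Q1_le q.2) hg, hqg, by group⟩

theorem d1_central [Finite G] {d : G} (hd : d ∈ c.D1) {g : G} (hg : g ∈ c.Q1) :
    d * g = g * d := by
  have hle : c.Q1 ≤ centralizer ({d} : Set G) := by
    rw [Q1, commutator_le]
    intro g hg π hπ
    rw [mem_centralizer_singleton_iff]
    have hd' := c.mem_cent hd.2 hπ
    have hdi := c.mem_cent (inv_mem hd.2) hπ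
    have h := c.mem_cent (c.commutator_mem_cent (c.Q1_le hd.1) (inv_mem hg)) hπ
    simp only [commutatorElement_def, inv_inv] at h ⊢
    have h2 : d * ((π * g⁻¹ * π⁻¹) * d⁻¹ * (π * g⁻¹ * π⁻¹)⁻¹) = d * (g⁻¹ * d⁻¹ * g) := by
      calc d * ((π * g⁻¹ * π⁻¹) * d⁻¹ * (π * g⁻¹ * π⁻¹)⁻¹)
          = (π * d * π⁻¹) * (π * g⁻¹ * π⁻¹) * (π * d⁻¹ * π⁻¹) * (π * g⁻¹ * π⁻¹)⁻¹ := by
            rw [hd', hdi]; group
        _ = π * (d * g⁻¹ * d⁻¹ * g) * π⁻¹ := by group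
        _ = d * (g⁻¹ * d⁻¹ * g) := by rw [h]; group
    have h3 := mul_left_cancel h2
    have h4 : Commute (g * π * g⁻¹ * π⁻¹) d⁻¹ := by
      calc g * π * g⁻¹ * π⁻¹ * d⁻¹
          = g * ((π * g⁻¹ * π⁻¹) * d⁻¹ * (π * g⁻¹ * π⁻¹)⁻¹) * (π * g⁻¹ * π⁻¹) := by group
        _ = g * (g⁻¹ * d⁻¹ * g) * (π * g⁻¹ * π⁻¹) := by rw [h3]
        _ = d⁻¹ * (g * π * g⁻¹ * π⁻¹) := by group
    exact Commute.inv_right_iff.mp h4
  exact (mem_centralizer_singleton_iff.mp (hle hg)).symm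

/-- A `P`-invariant homomorphism defined on `Q₁` is trivial. -/
theorem kill [Finite G] {X : Type*} [Group X] (f : c.Q1 →* X)
    (hf : ∀ (g : c.Q1) (π : G) (hπ : π ∈ c.P), f ⟨π * g * π⁻¹, c.gen_mem g.2 hπ⟩ = f g) :
    f = 1 := by
  have hle : c.Q1 ≤ f.ker.map c.Q1.subtype := by
    show ⁅c.Q, c.P⁆ ≤ _
    refine commutator_le.mpr ?_
    intro g hg π hπ
    obtain ⟨g₁, hg₁, d, -, hd, rfl⟩ := c.exists_mul hg
    have hd' := c.mem_cent (inv_mem hd) hπ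
    have hmem : g₁ * (π * g₁⁻¹ * π⁻¹) ∈ c.Q1 := mul_mem hg₁ (c.gen_mem (inv_mem hg₁) hπ)
    refine ⟨⟨_, hmem⟩, ?_, ?_⟩
    · show f ⟨_, hmem⟩ = 1
      have e : (⟨_, hmem⟩ : c.Q1) = ⟨g₁, hg₁⟩ *
          ⟨π * ((⟨g₁, hg₁⟩⁻¹ : c.Q1) : G) * π⁻¹, c.gen_mem (⟨g₁, hg₁⟩⁻¹ : c.Q1).2 hπ⟩ := rfl
      rw [e, map_mul, hf _ π hπ, map_inv, mul_inv_cancel]
    · show g₁ * (π * g₁⁻¹ * π⁻¹) = ⁅g₁ * d, π⁆
      rw [commutatorElement_def]
      calc g₁ * (π * g₁⁻¹ * π⁻¹)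
          = g₁ * (d * d⁻¹) * (π * g₁⁻¹ * π⁻¹) := by group
        _ = g₁ * (d * (π * d⁻¹ * π⁻¹)) * (π * g₁⁻¹ * π⁻¹) := by rw [hd']
        _ = g₁ * d * π * (g₁ * d)⁻¹ * π⁻¹ := by group
  ext g
  obtain ⟨y, hy, hyg⟩ := hle g.2
  rw [← Subtype.ext hyg]
  exact hy

theorem exists_not_cent [Finite G] : ∃ g ∈ c.Q1, g ∉ c.D1 := by
  by_contra h
  push Not at h
  refine c.notCent fun g hg => ?_
  obtain ⟨g₁, hg₁, d, -, hd, rfl⟩ := c.exists_mul hg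
  exact mul_mem (h g₁ hg₁).2 hd

theorem comm_sq_mem [Finite G] {g h : G} (hg : g ∈ c.Q1) (hh : h ∈ c.Q1) : ⁅g, h⁆ ∈ c.N := by
  refine c.all _ ?_
  have hd : ⁅g, h⁆ ∈ c.D1 := ⟨commutator_le_self _ (commutator_mem_commutator hg hh),
    c.commutator_mem_cent (c.Q1_le hg) (c.Q1_le hh)⟩
  have hg2 : g ^ 2 ∈ c.D1 := ⟨pow_mem hg 2, c.sqQ g (c.Q1_le hg)⟩
  have e : ⁅g ^ 2, h⁆ = g * ⁅g, h⁆ * g⁻¹ * ⁅g, h⁆ := by
    simp only [commutatorElement_def, pow_two]; group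
  rw [commutatorElement_eq_one_iff_mul_comm.mpr (c.d1_central hg2 hh),
    ← c.d1_central hd hg, mul_inv_cancel_right] at e
  rw [pow_two]
  exact e.symm

theorem mk_mul_comm [Finite G] {g h : G} (hg : g ∈ c.Q1) (hh : h ∈ c.Q1) :
    haveI := c.normalN
    QuotientGroup.mk' c.N g * QuotientGroup.mk' c.N h =
      QuotientGroup.mk' c.N h * QuotientGroup.mk' c.N g := by
  haveI := c.normalN
  rw [← commutatorElement_eq_one_iff_mul_comm, ← map_commutatorElement]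
  exact (QuotientGroup.eq_one_iff _).mpr (c.comm_sq_mem hg hh)

/-- Squares of `Q₁` are involutions. -/
theorem sq_mem [Finite G] {g : G} (hg : g ∈ c.Q1) : g ^ 2 ∈ c.N := by
  haveI := c.normalN
  let f : c.Q1 →* G ⧸ c.N :=
    { toFun := fun x => (QuotientGroup.mk' c.N (x : G)) ^ 2
      map_one' := by simp
      map_mul' := fun x y => by
        rw [Subgroup.coe_mul, map_mul]
        exact Commute.mul_pow (c.mk_mul_comm x.2 y.2) 2 }
  have h := c.kill f fun x π hπ => by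
    show (QuotientGroup.mk' c.N (π * (x : G) * π⁻¹)) ^ 2 = (QuotientGroup.mk' c.N (x : G)) ^ 2
    rw [← map_pow, ← map_pow, conj_pow, c.mem_cent (c.sqQ _ (c.Q1_le x.2)) hπ]
  have h2 := DFunLike.congr_fun h ⟨g, hg⟩
  change (QuotientGroup.mk' c.N g) ^ 2 = 1 at h2
  rw [← map_pow] at h2
  exact (QuotientGroup.eq_one_iff _).mp h2

theorem exists_sqrt [Finite G] {z : G} (hz : z ∈ c.N) (hz1 : z ≠ 1) :
    ∃ g ∈ c.Q1, g ∉ c.D1 ∧ g ^ 2 = z := by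
  obtain ⟨g, hg, hgD⟩ := c.exists_not_cent
  have h1 : g ^ 2 ≠ 1 := fun h => hgD ⟨hg, c.centN (c.all g h)⟩
  obtain ⟨l, hl, hlz⟩ := c.trans _ (c.sq_mem hg) z hz h1 hz1
  refine ⟨l * g * l⁻¹, c.conj_mem_Q1 hl hg, fun h => hgD ?_, by rw [conj_pow, hlz]⟩
  have := c.conj_mem_D1 (inv_mem hl) h
  simpa [mul_assoc] using this

theorem N_le_Q1 [Finite G] : c.N ≤ c.Q1 := by
  intro z hz
  rcases eq_or_ne z 1 with rfl | hz1
  · exact one_mem _
  obtain ⟨g, hg, -, rfl⟩ := c.exists_sqrt hz hz1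
  exact pow_mem hg 2

theorem N_le_D1 [Finite G] : c.N ≤ c.D1 := fun _ hz => ⟨c.N_le_Q1 hz, c.centN hz⟩

/-- An element normalising `P`, with square an involution, trivial on `Q₁ / D₁`, lies in `N`. -/
theorem mem_of_trivial [Finite G] {t : G} (ht : t ∈ normalizer (c.P : Set G)) (ht2 : t ^ 2 ∈ c.N)
    (htriv : ∀ g ∈ c.Q1, t * g * t⁻¹ * g⁻¹ ∈ c.D1) : t ∈ c.N := by
  rcases eq_or_ne (t ^ 2) 1 with h1 | h1
  · exact c.all t h1
  exfalso
  -- conjugates of `t` by elements of `P` act on `Q₁` as `t` does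
  have hconj : ∀ π ∈ c.P, ∀ g ∈ c.Q1, (π⁻¹ * t * π) * g * (π⁻¹ * t * π)⁻¹ = t * g * t⁻¹ := by
    intro π hπ g hg
    set p := t⁻¹ * (π⁻¹ * t * π) with hp
    have hpP : p ∈ c.P := by
      rw [hp, show t⁻¹ * (π⁻¹ * t * π) = (t⁻¹ * π⁻¹ * t) * π by group]
      exact mul_mem ((mem_normalizer_iff''.mp ht _).mp (inv_mem hπ)) hπ
    have hg' := c.gen_mem hg hπ
    have hD := htriv _ hg'
    have e1 : (π⁻¹ * t * π) * g * (π⁻¹ * t * π)⁻¹ * g⁻¹ =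
        π⁻¹ * (t * (π * g * π⁻¹) * t⁻¹ * (π * g * π⁻¹)⁻¹) * π := by group
    have e2 : π⁻¹ * (t * (π * g * π⁻¹) * t⁻¹ * (π * g * π⁻¹)⁻¹) * π =
        t * (π * g * π⁻¹) * t⁻¹ * (π * g * π⁻¹)⁻¹ := by
      have := c.mem_cent hD.2 (inv_mem hπ)
      rwa [inv_inv] at this
    -- `p` moves `g` by an element of `D₁`
    have hd : p * g * p⁻¹ * g⁻¹ ∈ c.D1 := by
      have e3 : p * g * p⁻¹ * g⁻¹ =
          (t⁻¹ * ((π⁻¹ * t * π) * g * (π⁻¹ * t * π)⁻¹ * g⁻¹) * t) *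
            (t⁻¹ * (t * g * t⁻¹ * g⁻¹) * t)⁻¹ := by rw [hp]; group
      rw [e3]
      have hti := inv_mem ht
      refine mul_mem ?_ (inv_mem ?_)
      · have := c.conj_mem_D1 hti (e1.trans e2 ▸ hD)
        rwa [inv_inv] at this
      · have := c.conj_mem_D1 hti (htriv g hg)
        rwa [inv_inv] at this
    set d := p * g * p⁻¹ * g⁻¹ with hddef
    have hpd : p * d * p⁻¹ = d := c.mem_cent hd.2 hpP
    have hpow : ∀ k : ℕ, p ^ k * g * (p ^ k)⁻¹ = d ^ k * g := by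
      intro k
      induction k with
      | zero => simp
      | succ k ih =>
        calc p ^ (k + 1) * g * (p ^ (k + 1))⁻¹ = p * (p ^ k * g * (p ^ k)⁻¹) * p⁻¹ := by
              rw [pow_succ']; group
          _ = (p * d * p⁻¹) ^ k * (p * g * p⁻¹) := by rw [ih, conj_pow]; group
          _ = d ^ (k + 1) * g := by rw [hpd, pow_succ, hddef]; group
    have hdo : d ^ orderOf p = 1 := by
      have := hpow (orderOf p)
      rw [pow_orderOf_eq_one, one_mul, inv_one, mul_one] at this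
      exact mul_eq_right.mp this.symm
    haveI := Fact.mk c.primeR
    obtain ⟨i, hi⟩ := (IsPGroup.iff_orderOf.mp c.pgP) ⟨p, hpP⟩
    obtain ⟨j, hj⟩ := (IsPGroup.iff_orderOf (p := 2)).mp c.pgQ ⟨d, c.Q1_le hd.1⟩
    rw [Subgroup.orderOf_mk] at hi hj
    have hd1 : d = 1 := orderOf_eq_one_iff.mp (Nat.eq_one_of_dvd_coprimes
      ((Nat.coprime_primes Nat.prime_two c.primeR).mpr c.r_ne.symm |>.pow j i)
      (hj ▸ dvd_rfl) (hi ▸ orderOf_dvd_of_pow_eq_one hdo))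
    have hpg : p * g * p⁻¹ = g := mul_inv_eq_one.mp hd1
    calc (π⁻¹ * t * π) * g * (π⁻¹ * t * π)⁻¹ = t * (p * g * p⁻¹) * t⁻¹ := by rw [hp]; group
      _ = t * g * t⁻¹ := by rw [hpg]
  let f : c.Q1 →* G :=
    { toFun := fun x => t * x * t⁻¹ * (x : G)⁻¹
      map_one' := by simp
      map_mul' := fun x y => by
        have hx := htriv x x.2
        have hy := htriv y y.2
        calc t * ((x : G) * y) * t⁻¹ * ((x : G) * y)⁻¹
            = (t * x * t⁻¹ * (x : G)⁻¹) * ((x : G) * (t * y * t⁻¹ * (y : G)⁻¹)) * (x : G)⁻¹ := by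
              group
          _ = (t * x * t⁻¹ * (x : G)⁻¹) * ((t * y * t⁻¹ * (y : G)⁻¹) * x) * (x : G)⁻¹ := by
              rw [c.d1_central hy x.2]
          _ = (t * x * t⁻¹ * (x : G)⁻¹) * (t * y * t⁻¹ * (y : G)⁻¹) := by group }
  have hf := c.kill f fun x π hπ => by
    show t * (π * x * π⁻¹) * t⁻¹ * (π * x * π⁻¹)⁻¹ = t * x * t⁻¹ * (x : G)⁻¹
    have hD := htriv _ (c.gen_mem x.2 hπ)
    calc t * (π * x * π⁻¹) * t⁻¹ * (π * x * π⁻¹)⁻¹
        = π⁻¹ * (t * (π * x * π⁻¹) * t⁻¹ * (π * x * π⁻¹)⁻¹) * π := by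
          have := c.mem_cent hD.2 (inv_mem hπ)
          rw [inv_inv] at this
          exact this.symm
      _ = (π⁻¹ * t * π) * x * (π⁻¹ * t * π)⁻¹ * (x : G)⁻¹ := by group
      _ = t * x * t⁻¹ * (x : G)⁻¹ := by rw [hconj π hπ x x.2]
  obtain ⟨g, hg, hgD, hg2⟩ := c.exists_sqrt ht2 h1
  have hcomm : t * g = g * t := by
    have h := DFunLike.congr_fun hf ⟨g, hg⟩
    change t * g * t⁻¹ * g⁻¹ = 1 at h
    rwa [mul_inv_eq_one, mul_inv_eq_iff_eq_mul] at h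
  have hn : g * t⁻¹ ∈ c.N := c.all _ (by
    rw [(Commute.inv_left hcomm).symm.mul_pow, hg2, inv_pow, mul_inv_cancel])
  have htQ : t ∈ c.Q1 := by
    have := mul_mem (inv_mem (c.N_le_Q1 hn)) hg
    simpa [mul_assoc] using this
  have htP : t ∈ centralizer (c.P : Set G) := by
    rw [mem_centralizer_iff]
    intro π hπ
    have h1 : t * π * t⁻¹ * π⁻¹ ∈ c.P :=
      mul_mem ((mem_normalizer_iff.mp ht π).mp hπ) (inv_mem hπ)
    have h2 : t * π * t⁻¹ * π⁻¹ ∈ c.Q := by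
      rw [show t * π * t⁻¹ * π⁻¹ = t * (π * t⁻¹ * π⁻¹) by group]
      exact mul_mem (c.Q1_le htQ) (c.normalQ.conj_mem _ (inv_mem (c.Q1_le htQ)) π)
    haveI := Fact.mk c.primeR
    haveI : Fact (Nat.Prime 2) := ⟨Nat.prime_two⟩
    have h3 := Subgroup.disjoint_def.mp (IsPGroup.disjoint_of_ne c.r 2 c.r_ne _ _ c.pgP c.pgQ) h1 h2
    rw [mul_inv_eq_one, mul_inv_eq_iff_eq_mul] at h3
    exact h3.symm
  refine hgD ⟨hg, ?_⟩
  have := mul_mem (c.centN hn) htP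
  simpa [mul_assoc] using this

theorem D1_eq [Finite G] : c.D1 = c.N := by
  refine le_antisymm (fun d hd => ?_) c.N_le_D1
  refine c.mem_of_trivial ?_ (c.sq_mem hd.1) fun g hg => ?_
  · exact centralizer_le_normalizer _ hd.2
  · rw [c.d1_central hd hg, mul_inv_cancel_right, mul_inv_cancel]; exact one_mem _

end Cfg
end Cfsg.Agent.OneInvClass
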