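import Cfsg.Agent.OneInvClass.Core

/-!
The configuration of `OneInvClass.Core` with a family of normalising square roots is impossible.
-/

set_option autoImplicit false
open Subgroup
open scoped commutatorElement

namespace Cfsg.Agent.OneInvClass.Cfg

variable {G : Type*} [Group G] [Finite G] (c : Cfg G)

theorem conj_square {g n : G} (hn : n ∈ c.N) (hg : g ∈ c.Q) : (g * n) ^ 2 = g ^ 2 := by
  rw [Commute.mul_pow (c.centQ g hg n hn) 2, c.sq n hn, mul_one]

theorem false_of_roots (E : Subgroup G) (hEL : E ≤ normalizer (c.P : Set G))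
    (hEN : E ≤ centralizer (c.N : Set G)) (hE2 : ∀ t ∈ E, t ^ 2 ∈ c.N)
    (hEc : ∀ t ∈ E, ∀ u ∈ E, ⁅t, u⁆ ∈ c.N) (hroot : ∀ z ∈ c.N, ∃ t ∈ E, t ^ 2 = z) : False := by
  classical
  haveI := c.normalN
  set π := QuotientGroup.mk' c.N with hπ
  have hker : ∀ g : G, π g = 1 ↔ g ∈ c.N := fun g => QuotientGroup.eq_one_iff g
  have heq : ∀ g h : G, π g = π h ↔ g⁻¹ * h ∈ c.N := fun g h => QuotientGroup.eq
  let Q' : Subgroup (G ⧸ c.N) := c.Q1.map π
  have hQ'c : ∀ x ∈ Q', ∀ y ∈ Q', x * y = y * x := by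
    rintro _ ⟨g, hg, rfl⟩ _ ⟨h, hh, rfl⟩
    exact c.mk_mul_comm hg hh
  have hQ'2 : ∀ x ∈ Q', x * x = 1 := by
    rintro _ ⟨g, hg, rfl⟩
    rw [← map_mul, hker, ← pow_two]; exact c.sq_mem hg
  letI : CommGroup Q' :=
    { (inferInstance : Group Q') with mul_comm := fun x y => Subtype.ext (hQ'c x x.2 y y.2) }
  letI : CommGroup c.N :=
    { (inferInstance : Group c.N) with mul_comm := fun x y => Subtype.ext (comm_of_sq c.sq x.2 y.2) }
  -- lifts
  have hlift : ∀ x : Q', ∃ g, g ∈ c.Q1 ∧ π g = x := fun x => x.2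
  choose ℓ hℓ hℓπ using hlift
  have hsqwd : ∀ g ∈ c.Q1, ∀ h : G, π g = π h → g ^ 2 = h ^ 2 := by
    intro g hg h e
    have := c.conj_square ((heq g h).mp e) (c.Q1_le hg)
    rw [mul_inv_cancel_left] at this
    exact this.symm
  have hcomwd : ∀ g ∈ c.Q1, ∀ h ∈ c.Q1, ∀ g' ∈ c.Q1, ∀ h' ∈ c.Q1, π g = π g' → π h = π h' →
      ⁅g, h⁆ = ⁅g', h'⁆ := by
    intro g hg h hh g' hg' h' hh' e1 e2
    obtain ⟨n, hn, rfl⟩ : ∃ n, n ∈ c.N ∧ g * n = g' := ⟨g⁻¹ * g', (heq _ _).mp e1, by group⟩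
    obtain ⟨m, hm, rfl⟩ : ∃ m, m ∈ c.N ∧ h * m = h' := ⟨h⁻¹ * h', (heq _ _).mp e2, by group⟩
    have a1 : n * (h * m) = h * m * n := (c.centQ _ (c.Q1_le hh') n hn).symm
    have a2 : g * m = m * g := c.centQ g (c.Q1_le hg) m hm
    calc ⁅g, h⁆ = g * h * g⁻¹ * h⁻¹ := commutatorElement_def _ _
      _ = g * h * ((m * g) * g⁻¹ * m⁻¹) * g⁻¹ * h⁻¹ := by group
      _ = g * h * ((g * m) * g⁻¹ * m⁻¹) * g⁻¹ * h⁻¹ := by rw [a2]
      _ = g * h * ((g * m) * (g⁻¹ * m⁻¹ * g⁻¹)) * h⁻¹ := by group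
      _ = g * h * ((m * g) * (g⁻¹ * m⁻¹ * g⁻¹)) * h⁻¹ := by rw [a2]
      _ = g * (h * m) * n * n⁻¹ * g⁻¹ * (h * m)⁻¹ := by
          have a3 : g⁻¹ * m⁻¹ = m⁻¹ * g⁻¹ :=
            (c.centQ _ (c.Q1_le (inv_mem hg)) _ (inv_mem hm))
          have a4 : m⁻¹ * h⁻¹ = h⁻¹ * m⁻¹ := (c.centQ _ (c.Q1_le (inv_mem hh)) _ (inv_mem hm)).symm
          calc g * h * ((m * g) * (g⁻¹ * m⁻¹ * g⁻¹)) * h⁻¹ = g * h * g⁻¹ * h⁻¹ := by group
            _ = g * h * m * (m⁻¹ * g⁻¹) * h⁻¹ := by group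
            _ = g * h * m * (g⁻¹ * m⁻¹) * h⁻¹ := by rw [a3]
            _ = g * h * m * g⁻¹ * (m⁻¹ * h⁻¹) := by group
            _ = _ := by group
      _ = g * (n * (h * m)) * n⁻¹ * g⁻¹ * (h * m)⁻¹ := by rw [a1]; group
      _ = ⁅g * n, h * m⁆ := by rw [commutatorElement_def]; group
  let q : Additive Q' → Additive c.N := fun x =>
    Additive.ofMul ⟨(ℓ x.toMul) ^ 2, c.sq_mem (hℓ _)⟩
  have hq : ∀ (x : Additive Q') (g : G), π g = ((x.toMul : Q') : G ⧸ c.N) →
      ((q x).toMul : G) = g ^ 2 := fun x g e =>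
    hsqwd _ (hℓ x.toMul) g ((hℓπ x.toMul).trans e.symm)
  let bb : Additive Q' → Additive Q' → Additive c.N := fun x y =>
    Additive.ofMul ⟨⁅ℓ x.toMul, ℓ y.toMul⁆, c.comm_sq_mem (hℓ _) (hℓ _)⟩
  have hbb : ∀ (x y : Additive Q') (g h : G), g ∈ c.Q1 → h ∈ c.Q1 →
      π g = ((x.toMul : Q') : G ⧸ c.N) → π h = ((y.toMul : Q') : G ⧸ c.N) →
      ((bb x y).toMul : G) = ⁅g, h⁆ := fun x y g h hg hh e1 e2 =>
    hcomwd _ (hℓ _) _ (hℓ _) g hg h hh ((hℓπ _).trans e1.symm) ((hℓπ _).trans e2.symm)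
  have hπℓ : ∀ x y : Additive Q', π (ℓ x.toMul * ℓ y.toMul) =
      (((x + y).toMul : Q') : G ⧸ c.N) := fun x y => by
    rw [map_mul, hℓπ, hℓπ]; rfl
  have hcN : ∀ g ∈ c.Q1, ∀ h ∈ c.Q1, ∀ k ∈ c.Q1, k * ⁅g, h⁆ * k⁻¹ = ⁅g, h⁆ :=
    fun g hg h hh k hk => by
      rw [c.centQ k (c.Q1_le hk) _ (c.comm_sq_mem hg hh), mul_inv_cancel_right]
  let b : Additive Q' →+ Additive Q' →+ Additive c.N :=
    AddMonoidHom.mk' (fun x => AddMonoidHom.mk' (bb x) (fun y y' => by
      apply Additive.toMul.injective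
      apply Subtype.ext
      have hy := hℓ y.toMul
      have hy' := hℓ y'.toMul
      rw [hbb x (y + y') _ _ (hℓ _) (mul_mem hy hy') (hℓπ _) (hπℓ y y')]
      show _ = ((bb x y).toMul : G) * ((bb x y').toMul : G)
      have := hcN _ (hℓ x.toMul) _ hy' _ hy
      show ⁅ℓ x.toMul, ℓ y.toMul * ℓ y'.toMul⁆ = ⁅ℓ x.toMul, ℓ y.toMul⁆ * ⁅ℓ x.toMul, ℓ y'.toMul⁆
      conv_rhs => rw [← this]
      simp only [commutatorElement_def]; group)) (fun x x' => by
      apply AddMonoidHom.ext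
      intro y
      apply Additive.toMul.injective
      apply Subtype.ext
      have hx := hℓ x.toMul
      have hx' := hℓ x'.toMul
      show ((bb (x + x') y).toMul : G) = ((bb x y).toMul : G) * ((bb x' y).toMul : G)
      rw [hbb (x + x') y _ _ (mul_mem hx hx') (hℓ _) (hπℓ x x') (hℓπ _)]
      show ⁅ℓ x.toMul * ℓ x'.toMul, ℓ y.toMul⁆ = ⁅ℓ x.toMul, ℓ y.toMul⁆ * ⁅ℓ x'.toMul, ℓ y.toMul⁆
      rw [comm_of_sq c.sq (c.comm_sq_mem hx (hℓ _)) (c.comm_sq_mem hx' (hℓ _))]
      conv_rhs => rw [← hcN _ hx' _ (hℓ y.toMul) _ hx]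
      simp only [commutatorElement_def]; group)
  have hπconj : ∀ l g : G, π (l * g * l⁻¹) = π l * π g * (π l)⁻¹ := fun l g => by
    rw [map_mul, map_mul, map_inv]
  have hQconj : ∀ l ∈ normalizer (c.P : Set G), ∀ x ∈ Q', π l * x * (π l)⁻¹ ∈ Q' := by
    rintro l hl _ ⟨g, hg, rfl⟩
    exact ⟨_, c.conj_mem_Q1 hl hg, hπconj l g⟩
  let D : Forms.Data (Additive Q') (Additive c.N) :=
    { q := q
      b := b
      hV := fun v => congrArg Additive.ofMul (Subtype.ext (hQ'2 _ v.toMul.2) :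
        v.toMul * v.toMul = (1 : Q'))
      hW := fun w => congrArg Additive.ofMul (Subtype.ext (by
        show (w.toMul : G) * (w.toMul : G) = 1
        rw [← pow_two]; exact c.sq _ w.toMul.2) : w.toMul * w.toMul = (1 : c.N))
      map_add := fun u v => by
        apply Additive.toMul.injective
        apply Subtype.ext
        rw [hq (u + v) _ (hπℓ u v)]
        set g := ℓ u.toMul with hg'
        set h := ℓ v.toMul with hh'
        show (g * h) ^ 2 = g ^ 2 * h ^ 2 * ⁅g, h⁆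
        have hgQ := hℓ u.toMul
        have hhQ := hℓ v.toMul
        have hc := c.comm_sq_mem hgQ hhQ
        have hcinv : (⁅g, h⁆)⁻¹ = ⁅g, h⁆ :=
          inv_eq_of_mul_eq_one_right (by rw [← pow_two]; exact c.sq _ hc)
        calc (g * h) ^ 2 = g * ((⁅g, h⁆)⁻¹ * g) * (h * h) := by
              simp only [pow_two, commutatorElement_def]; group
          _ = g * (g * ⁅g, h⁆) * (h * h) := by rw [hcinv, c.centQ g (c.Q1_le hgQ) _ hc]
          _ = g * g * (⁅g, h⁆ * (h * h)) := by group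
          _ = g * g * ((h * h) * ⁅g, h⁆) := by
              rw [c.centQ (h * h) (c.Q1_le (mul_mem hhQ hhQ)) _ hc]
          _ = g ^ 2 * h ^ 2 * ⁅g, h⁆ := by simp only [pow_two]; group
      aniso := fun u hu => by
        have h1 : (ℓ u.toMul) ^ 2 = 1 := congrArg (fun w : Additive c.N => (w.toMul : G)) hu
        apply Additive.toMul.injective
        apply Subtype.ext
        show ((u.toMul : Q') : G ⧸ c.N) = 1
        rw [← hℓπ, hker]
        exact c.all _ h1
      fib := fun z z' hz hz' => by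
        have hne : ∀ w : Additive c.N, w ≠ 0 → (w.toMul : G) ≠ 1 := fun w hw h =>
          hw (Additive.toMul.injective (Subtype.ext h))
        obtain ⟨l, hl, hlz⟩ := c.trans _ z.toMul.2 _ z'.toMul.2 (hne z hz) (hne z' hz')
        let σ : Additive Q' ≃ Additive Q' :=
          { toFun := fun x => Additive.ofMul ⟨π l * x.toMul * (π l)⁻¹, hQconj l hl _ x.toMul.2⟩
            invFun := fun x => Additive.ofMul ⟨π l⁻¹ * x.toMul * (π l⁻¹)⁻¹,
              hQconj _ (inv_mem hl) _ x.toMul.2⟩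
            left_inv := fun x => Additive.toMul.injective (Subtype.ext (by simp [mul_assoc]))
            right_inv := fun x => Additive.toMul.injective (Subtype.ext (by simp [mul_assoc])) }
        refine Nat.card_congr (Equiv.subtypeEquiv σ fun x => ?_)
        have e : ((q (σ x)).toMul : G) = l * ((q x).toMul : G) * l⁻¹ := by
          rw [hq (σ x) (l * ℓ x.toMul * l⁻¹) (by rw [hπconj, hℓπ]; rfl), conj_pow]; rfl
        constructor
        · intro hx
          apply Additive.toMul.injective; apply Subtype.ext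
          rw [e, hx, hlz]
        · intro hx
          apply Additive.toMul.injective; apply Subtype.ext
          rw [hx, ← hlz] at e
          exact (mul_left_cancel (mul_right_cancel e)).symm
      noninj := by
        obtain ⟨g, hg, hgD⟩ := c.exists_not_cent
        obtain ⟨p, hp, hmove⟩ : ∃ p ∈ c.P, ∃ x : c.Q1, π (p * (x : G) * p⁻¹) ≠ π x := by
          by_contra hall
          push Not at hall
          have h := DFunLike.congr_fun
            (c.kill (π.comp c.Q1.subtype) fun x p hp => hall p hp x) ⟨g, hg⟩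
          exact hgD (c.N_le_D1 ((hker g).mp h))
        obtain ⟨x, hx⟩ := hmove
        refine ⟨Additive.ofMul ⟨π (p * (x : G) * p⁻¹), _, c.gen_mem x.2 hp, rfl⟩,
          Additive.ofMul ⟨π x, _, x.2, rfl⟩,
          fun h => hx (congrArg (fun w : Additive Q' => ((w.toMul : Q') : G ⧸ c.N)) h), ?_⟩
        apply Additive.toMul.injective; apply Subtype.ext
        rw [hq _ _ rfl, hq _ _ rfl, conj_pow, c.mem_cent (c.sqQ _ (c.Q1_le x.2)) hp]
      big := by
        rw [Nat.card_congr (Additive.toMul (α := c.N))]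
        exact c.big }
  -- the family
  choose T hT hTsq using fun z : Additive c.N => hroot (z.toMul : G) z.toMul.2
  let F : Additive c.N → (Additive Q' →+ Additive Q') := fun z =>
    AddMonoidHom.mk' (fun x => Additive.ofMul ⟨π (T z) * x.toMul * (π (T z))⁻¹,
      hQconj _ (hEL (hT z)) _ x.toMul.2⟩) (fun x y => Additive.toMul.injective (Subtype.ext (by
        show π (T z) * (((x.toMul : Q') : G ⧸ c.N) * (y.toMul : Q')) * (π (T z))⁻¹ =
          (π (T z) * (x.toMul : Q') * (π (T z))⁻¹) * (π (T z) * (y.toMul : Q') * (π (T z))⁻¹)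
        group)))
  have hFπ : ∀ (z : Additive c.N) (x : Additive Q'),
      (((F z x).toMul : Q') : G ⧸ c.N) = π (T z * ℓ x.toMul * (T z)⁻¹) := fun z x => by
    rw [hπconj, hℓπ]; rfl
  have hsq1 : ∀ t ∈ E, π t * π t = 1 := fun t ht => by
    rw [← map_mul, hker, ← pow_two]; exact hE2 t ht
  have hfix : ∀ t ∈ E, ∀ n ∈ c.N, t * n * t⁻¹ = n := fun t ht n hn => by
    rw [← mem_centralizer_iff.mp (hEN ht) n hn, mul_inv_cancel_right]
  refine Forms.no_family D F (fun z => ⟨fun x => ?_, fun x => ?_⟩) (fun z z' x => ?_) ?_ ?_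
  · apply Additive.toMul.injective; apply Subtype.ext
    show ((q (F z x)).toMul : G) = ((q x).toMul : G)
    rw [hq (F z x) _ (hFπ z x).symm, conj_pow]
    exact hfix _ (hT z) _ (c.sq_mem (hℓ _))
  · apply Additive.toMul.injective; apply Subtype.ext
    show π (T z) * (π (T z) * (x.toMul : Q') * (π (T z))⁻¹) * (π (T z))⁻¹ = (x.toMul : Q')
    rw [inv_eq_of_mul_eq_one_right (hsq1 _ (hT z))]
    calc π (T z) * (π (T z) * ((x.toMul : Q') : G ⧸ c.N) * π (T z)) * π (T z)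
        = (π (T z) * π (T z)) * (x.toMul : Q') * (π (T z) * π (T z)) := by group
      _ = _ := by rw [hsq1 _ (hT z), one_mul, mul_one]
  · apply Additive.toMul.injective; apply Subtype.ext
    have hcomm : π (T z) * π (T z') = π (T z') * π (T z) := by
      rw [← commutatorElement_eq_one_iff_mul_comm, ← map_commutatorElement, hker]
      exact hEc _ (hT z) _ (hT z')
    show π (T z) * (π (T z') * (x.toMul : Q') * (π (T z'))⁻¹) * (π (T z))⁻¹ =
      π (T z') * (π (T z) * (x.toMul : Q') * (π (T z))⁻¹) * (π (T z'))⁻¹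
    calc π (T z) * (π (T z') * ((x.toMul : Q') : G ⧸ c.N) * (π (T z'))⁻¹) * (π (T z))⁻¹
        = (π (T z) * π (T z')) * (x.toMul : Q') * (π (T z) * π (T z'))⁻¹ := by group
      _ = (π (T z') * π (T z)) * (x.toMul : Q') * (π (T z') * π (T z))⁻¹ := by rw [hcomm]
      _ = _ := by group
  · intro x
    have hT0 : T 0 ∈ c.N := c.all _ (hTsq 0)
    apply Additive.toMul.injective; apply Subtype.ext
    show π (T 0) * (x.toMul : Q') * (π (T 0))⁻¹ = (x.toMul : Q')
    rw [(hker _).mpr hT0]; simp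
  · intro z z' h
    set u := (T z')⁻¹ * T z with hu
    have huE : u ∈ E := mul_mem (inv_mem (hT z')) (hT z)
    have huN : u ∈ c.N := by
      refine c.mem_of_trivial (hEL huE) (hE2 u huE) fun g hg => c.N_le_D1 ((hker _).mp ?_)
      have hg' := congrArg (fun w : Additive Q' => ((w.toMul : Q') : G ⧸ c.N))
        (h (Additive.ofMul ⟨π g, g, hg, rfl⟩))
      change π (T z) * π g * (π (T z))⁻¹ = π (T z') * π g * (π (T z'))⁻¹ at hg'
      calc π (u * g * u⁻¹ * g⁻¹)
          = (π (T z'))⁻¹ * (π (T z) * π g * (π (T z))⁻¹) * π (T z') * (π g)⁻¹ := by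
            simp [hu, mul_assoc]
        _ = (π (T z'))⁻¹ * (π (T z') * π g * (π (T z'))⁻¹) * π (T z') * (π g)⁻¹ := by rw [hg']
        _ = 1 := by group
    apply Additive.toMul.injective; apply Subtype.ext
    rw [← hTsq z, ← hTsq z', show T z = T z' * u by rw [hu, mul_inv_cancel_left]]
    rw [Commute.mul_pow (mem_centralizer_iff.mp (hEN (hT z')) u huN).symm 2, c.sq u huN, mul_one]

end Cfsg.Agent.OneInvClass.Cfg
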