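import Cfsg.Agent.OneInvClass.Final
import Cfsg.Agent.Lib.Element
import Cfsg.Agent.Lib.MinimalNormal
import Cfsg.Agent.Lib.PLength
import Cfsg.Agent.OddPre.PLengthOne
import Cfsg.Agent.PSolv.HallHigman
import Cfsg.Agent.PSolv.Cores
import Cfsg.Agent.Cores.Basic
import Cfsg.Agent.PGroup.Frattini
import Cfsg.Prelude.Def_Local

/-!
Solvable groups with more than one involution, all conjugate, have 2-length one (Thompson).
-/

set_option autoImplicit false
open Subgroup
open scoped commutatorElement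

namespace Cfsg.Agent.OneInvClass

universe u

/-- Solvable, all involutions conjugate, two distinct commuting involutions. -/
structure Hyp (G : Type*) [Group G] : Prop where
  solv : Group.IsSolvable G
  conj : ∀ x y : G, x ≠ 1 → x ^ 2 = 1 → y ≠ 1 → y ^ 2 = 1 → IsConj x y
  two : ∃ x y : G, x * y = y * x ∧ x ≠ y ∧ x ≠ 1 ∧ x ^ 2 = 1 ∧ y ≠ 1 ∧ y ^ 2 = 1

theorem Hyp.quotient {G : Type*} [Group G] [Finite G] (h : Hyp G) (K : Subgroup G) [K.Normal]
    (hK : (Nat.card K).Coprime 2) : Hyp (G ⧸ K) := by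
  haveI : Fact (Nat.Prime 2) := ⟨Nat.prime_two⟩
  haveI := h.solv
  set π := QuotientGroup.mk' K
  have htwo : ∀ z ∈ K, z ^ 2 = 1 → z = 1 := by
    intro z hz h2
    exact orderOf_eq_one_iff.mp (Nat.eq_one_of_dvd_coprimes (Element.coprime_orderOf_of_mem hK hz)
      dvd_rfl (orderOf_dvd_of_pow_eq_one h2))
  have hlift : ∀ x : G ⧸ K, x ≠ 1 → x ^ 2 = 1 → ∃ y : G, π y = x ∧ y ≠ 1 ∧ y ^ 2 = 1 := by
    intro x hx hx2
    have hxo : orderOf x = 2 ^ 1 := by rw [pow_one]; exact orderOf_eq_prime hx2 hx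
    obtain ⟨y, hy, j, hj⟩ := Element.exists_pElement_preimage Nat.prime_two π
      (QuotientGroup.mk'_surjective K) hxo
    refine ⟨y, hy, fun h1 => hx (by rw [← hy, h1, map_one]), ?_⟩
    have hmem : y ^ 2 ∈ K := (QuotientGroup.eq_one_iff _).mp (by
      change π (y ^ 2) = 1
      rw [map_pow, hy, hx2])
    obtain ⟨i, -, hi⟩ := (Nat.dvd_prime_pow Nat.prime_two).mp (hj ▸ orderOf_pow_dvd (x := y) 2)
    refine orderOf_eq_one_iff.mp (Nat.eq_one_of_dvd_coprimes
      ((Element.coprime_orderOf_of_mem hK hmem).pow_right i) dvd_rfl (dvd_of_eq hi))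
  refine ⟨inferInstance, fun x y hx hx2 hy hy2 => ?_, ?_⟩
  · obtain ⟨x', rfl, h1, h2⟩ := hlift x hx hx2
    obtain ⟨y', rfl, h3, h4⟩ := hlift y hy hy2
    exact MonoidHom.map_isConj π (h.conj x' y' h1 h2 h3 h4)
  · obtain ⟨x, y, hxy, hne, hx, hx2, hy, hy2⟩ := h.two
    have hne1 : ∀ z : G, z ≠ 1 → z ^ 2 = 1 → π z ≠ 1 := fun z hz hz2 h1 =>
      hz (htwo z ((QuotientGroup.eq_one_iff z).mp h1) hz2)
    refine ⟨π x, π y, by rw [← map_mul, hxy, map_mul], fun e => ?_, hne1 x hx hx2,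
      by rw [← map_pow, hx2, map_one], hne1 y hy hy2, by rw [← map_pow, hy2, map_one]⟩
    have hz : x⁻¹ * y ∈ K := QuotientGroup.eq.mp e
    have hz2 : (x⁻¹ * y) ^ 2 = 1 := by
      rw [Commute.mul_pow (Commute.inv_left hxy) 2, inv_pow, hx2, hy2, inv_one, one_mul]
    exact hne (inv_mul_eq_one.mp (htwo _ hz hz2))

theorem sup_sylow_eq {G : Type*} [Group G] [Finite G] {C L : Subgroup G} {r : ℕ} [Fact r.Prime]
    (hCL : C ≤ L) {i : ℕ} (hi : C.relIndex L = r ^ i) (P : Sylow r L) :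
    C ⊔ (P : Subgroup L).map L.subtype = L := by
  refine le_antisymm (sup_le hCL (map_subtype_le _)) (relIndex_eq_one.mp ?_)
  refine Nat.eq_one_of_dvd_coprimes (Nat.Coprime.pow_left i
    ((Fact.out : r.Prime).coprime_iff_not_dvd.mpr P.not_dvd_index))
    (hi ▸ relIndex_dvd_of_le_left L le_sup_left) ?_
  have e : ((P : Subgroup L).map L.subtype).relIndex L = (P : Subgroup L).index := by
    rw [Subgroup.relIndex, Subgroup.subgroupOf,
      comap_map_eq_self_of_injective L.subtype_injective]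
  exact e ▸ relIndex_dvd_of_le_left L le_sup_right

section

variable {G : Type u} [Group G] [Finite G]

/-- The involutions of a core-free group. -/
theorem Hyp.exists_omega (h : Hyp G) (hO : pPrimeCore 2 G = ⊥) :
    ∃ N : Subgroup G, N.Normal ∧ (∀ x ∈ N, x ^ 2 = 1) ∧ (∀ z : G, z ^ 2 = 1 → z ∈ N) ∧
      (∀ M : Subgroup G, M.Normal → M ≤ N → M = ⊥ ∨ M = N) ∧ 4 ≤ Nat.card N := by
  haveI : Fact (Nat.Prime 2) := ⟨Nat.prime_two⟩
  haveI := h.solv
  obtain ⟨x, y, -, hne, hx, hx2, hy, hy2⟩ := h.two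
  haveI : Nontrivial G := ⟨⟨x, 1, hx⟩⟩
  obtain ⟨N, hN, hN1, hmin, -, r, hr, hNr, hp⟩ := MinNormal.exists_elementary_abelian (G := G)
  haveI := Fact.mk hr
  have hr2 : r = 2 := by
    by_contra hr2
    obtain ⟨i, hi⟩ := hp.exists_card_eq
    refine hN1 (le_bot_iff.mp (hO ▸ PSolv.le_pPrimeCore hN ?_))
    rw [hi]
    exact Nat.Coprime.pow_left i ((Nat.coprime_primes hr Nat.prime_two).mpr hr2)
  subst hr2
  obtain ⟨⟨a, haN⟩, ha1⟩ := ne_bot_iff_exists_ne_one.mp hN1
  have hall : ∀ z : G, z ^ 2 = 1 → z ∈ N := by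
    intro z hz
    rcases eq_or_ne z 1 with rfl | hz1
    · exact one_mem _
    obtain ⟨g, hg⟩ := isConj_iff.mp (h.conj a z (fun e => ha1 (Subtype.ext e)) (hNr a haN) hz1 hz)
    rw [← hg]; exact hN.conj_mem a haN g
  refine ⟨N, hN, hNr, hall, hmin, ?_⟩
  obtain ⟨n, hn⟩ := hp.exists_card_eq
  have h3 : 3 ≤ Nat.card N := by
    have hs : ({1, x, y} : Set G) ⊆ (N : Set G) := by
      rintro z (rfl | rfl | rfl)
      · exact one_mem _
      · exact hall _ hx2
      · exact hall _ hy2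
    have h1 := Set.ncard_le_ncard hs (Set.toFinite _)
    rw [Set.ncard_eq_three.mpr ⟨1, x, y, hx.symm, hy.symm, hne, rfl⟩] at h1
    rwa [← Nat.card_coe_set_eq] at h1
  rw [hn] at h3 ⊢
  rcases n with _ | _ | n
  · norm_num at h3
  · norm_num at h3
  · calc 4 = 2 ^ 2 := rfl
      _ ≤ 2 ^ (n + 2) := Nat.pow_le_pow_right (by norm_num) (by omega)

/-- In a core-free group the 2-elements centralise the involutions. -/
theorem Hyp.odd_index_centralizer (h : Hyp G) (hO : pPrimeCore 2 G = ⊥) {N : Subgroup G}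
    [hN : N.Normal] (hsq : ∀ x ∈ N, x ^ 2 = 1) (hall : ∀ z : G, z ^ 2 = 1 → z ∈ N)
    (hmin : ∀ M : Subgroup G, M.Normal → M ≤ N → M = ⊥ ∨ M = N) (hbig : 4 ≤ Nat.card N) :
    Odd (centralizer (N : Set G)).index := by
  haveI : Fact (Nat.Prime 2) := ⟨Nat.prime_two⟩
  haveI := h.solv
  set C := centralizer (N : Set G) with hC
  haveI : C.Normal := inferInstance
  by_contra hev
  rw [Nat.not_odd_iff_even, even_iff_two_dvd] at hev
  have hp : IsPGroup 2 N := fun x => ⟨1, Subtype.ext (by simpa using hsq x x.2)⟩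
  haveI : Nontrivial (G ⧸ C) := Finite.one_lt_card_iff_nontrivial.mp
    (Nat.le_of_dvd Nat.card_pos hev)
  obtain ⟨A, hAn, hA1, -, -, r, hr, -, hAr⟩ := MinNormal.exists_elementary_abelian (G := G ⧸ C)
  haveI := Fact.mk hr
  haveI := hAn
  set π := QuotientGroup.mk' C
  set L := A.comap π with hL
  haveI : L.Normal := hAn.comap _
  have hCL : C ≤ L := fun g hg => by
    rw [hL, mem_comap, show π g = 1 from (QuotientGroup.eq_one_iff g).mpr hg]; exact one_mem _
  obtain ⟨i, hi⟩ := hAr.exists_card_eq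
  have hrel : C.relIndex L = r ^ i := by
    rw [← hi, ← PSolv.card_map_mk_eq_relIndex C L, hL,
      map_comap_eq_self_of_surjective (QuotientGroup.mk'_surjective C)]
  obtain ⟨P₀⟩ : Nonempty (Sylow r L) := inferInstance
  set P := (P₀ : Subgroup L).map L.subtype with hP
  have hLP : C ⊔ P = L := sup_sylow_eq hCL hrel P₀
  have hPr : IsPGroup r P := P₀.isPGroup'.map _
  have hNC : ∀ z ∈ N, C ≤ centralizer ({z} : Set G) := fun z hz g hg =>
    mem_centralizer_singleton_iff.mpr (mem_centralizer_iff.mp hg z hz).symm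
  haveI : (centralizer (L : Set G)).Normal := inferInstance
  -- no involution is centralised by `P`
  have hfix : ∀ z ∈ N, (∀ g ∈ P, g * z = z * g) → z = 1 := by
    intro z hz hPz
    by_contra hz1
    have hL' : L ≤ centralizer ({z} : Set G) :=
      hLP ▸ sup_le (hNC z hz) (fun g hg => mem_centralizer_singleton_iff.mpr (hPz g hg))
    rcases hmin (N ⊓ centralizer (L : Set G)) inferInstance inf_le_left with h0 | h0
    · refine hz1 ((mem_bot (G := G)).mp (h0 ▸ (⟨hz, ?_⟩ : z ∈ N ⊓ centralizer (L : Set G))))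
      exact mem_centralizer_iff.mpr fun g hg => mem_centralizer_singleton_iff.mp (hL' hg)
    · have hLC : L ≤ C := fun g hg => mem_centralizer_iff.mpr fun n hn =>
        (mem_centralizer_iff.mp (h0.ge hn).2 g hg).symm
      refine hA1 ?_
      rw [← map_comap_eq_self_of_surjective (QuotientGroup.mk'_surjective C) A, ← hL,
        le_antisymm hLC hCL, QuotientGroup.map_mk'_self]
  rcases eq_or_ne r 2 with rfl | hr2
  · have hNL : N ≤ L := fun z hz => hCL (mem_centralizer_iff.mpr fun n hn => comm_of_sq hsq hn hz)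
    have hNP : N ≤ P := by
      haveI : (N.subgroupOf L).Normal := hN.subgroupOf L
      have h1 : N.subgroupOf L ≤ (P₀ : Subgroup L) :=
        (PSolv.le_pCore (p := 2) inferInstance (hp.of_equiv (subgroupOfEquivOfLe hNL).symm)).trans
          (PSolv.pCore_le_sylow P₀)
      intro z hz
      exact ⟨⟨z, hNL hz⟩, h1 hz, rfl⟩
    haveI : (N.subgroupOf P).Normal := hN.subgroupOf P
    have hne : N.subgroupOf P ≠ ⊥ := by
      intro h0
      rw [subgroupOf_eq_bot] at h0
      have : N = ⊥ := le_bot_iff.mp fun z hz => Subgroup.disjoint_def.mp h0 hz (hNP hz)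
      rw [this, card_bot] at hbig
      omega
    obtain ⟨⟨z, hz⟩, hz1⟩ := ne_bot_iff_exists_ne_one.mp (PGroup.inf_center_ne_bot hPr _ hne)
    refine hz1 (Subtype.ext (Subtype.ext (hfix (z : G) hz.1 fun g hg => ?_)))
    exact congrArg Subtype.val (mem_center_iff.mp hz.2 ⟨g, hg⟩)
  · have hsup : normalizer (P : Set G) ⊔ C = ⊤ := by
      refine top_le_iff.mp ((Sylow.normalizer_sup_eq_top P₀).ge.trans (sup_le le_sup_left ?_))
      rw [← hLP]
      exact sup_le le_sup_right (le_normalizer.trans le_sup_left)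
    have hdvd : C.index ∣ Nat.card (normalizer (P : Set G)) := by
      rw [← relIndex_top_right, ← hsup, relIndex_sup_right]
      exact index_dvd_card _
    obtain ⟨⟨u, hu⟩, huo⟩ := exists_prime_orderOf_dvd_card' 2 (hev.trans hdvd)
    have hu2 : u ^ 2 = 1 := congrArg Subtype.val (orderOf_dvd_iff_pow_eq_one.mp huo.dvd)
    have huN := hall u hu2
    have hdisj := IsPGroup.disjoint_of_ne r 2 hr2 P N hPr hp
    have hu1 : u = 1 := hfix u huN fun g hg => by
      have h1 : u * g * u⁻¹ * g⁻¹ ∈ P := mul_mem ((mem_normalizer_iff.mp hu g).mp hg) (inv_mem hg)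
      have h2 : u * g * u⁻¹ * g⁻¹ ∈ N := by
        rw [show u * g * u⁻¹ * g⁻¹ = u * (g * u⁻¹ * g⁻¹) by group]
        exact mul_mem huN (hN.conj_mem _ (inv_mem huN) g)
      have h3 := Subgroup.disjoint_def.mp hdisj h1 h2
      rw [mul_inv_eq_one, mul_inv_eq_iff_eq_mul] at h3
      exact h3.symm
    have : (⟨u, hu⟩ : normalizer (P : Set G)) = 1 := Subtype.ext hu1
    rw [this, orderOf_one] at huo
    norm_num at huo

/-- The core-free case. -/
theorem Hyp.odd_index_pCore (h : Hyp G) (hO : pPrimeCore 2 G = ⊥)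
    (ih : ∀ L : Subgroup G, L ≠ ⊤ → Hyp L → PLengthLE 2 1 L) :
    Odd (pCore 2 G).index := by
  haveI : Fact (Nat.Prime 2) := ⟨Nat.prime_two⟩
  haveI := h.solv
  obtain ⟨N, hN, hsq, hall, hmin, hbig⟩ := h.exists_omega hO
  set C := centralizer (N : Set G) with hC
  haveI : C.Normal := inferInstance
  have hCodd := h.odd_index_centralizer hO hsq hall hmin hbig
  have hpN : IsPGroup 2 N := fun x => ⟨1, Subtype.ext (by simpa using hsq x x.2)⟩
  have h2el : ∀ (S : Subgroup G), IsPGroup 2 S → S ≤ C := by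
    intro S hS g hg
    obtain ⟨k, hk⟩ := Element.orderOf_eq_pow_of_mem_isPGroup hS hg
    refine Element.mem_of_coprime_index ?_
    rw [hk]
    exact Nat.Coprime.pow_left k (Nat.coprime_two_left.mpr hCodd)
  by_contra hev
  rw [Nat.not_odd_iff_even, even_iff_two_dvd] at hev
  set M := pCore 2 G with hM
  have hMp : IsPGroup 2 M := PSolv.isPGroup_pCore 2 G
  haveI : M.Normal := (haveI := PSolv.pCore_characteristic 2 G; inferInstance)
  have hNM : N ≤ M := PSolv.le_pCore hN hpN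
  have hMC : M ≤ C := h2el M hMp
  set π := QuotientGroup.mk' M
  haveI hCb : (C.map π).Normal := Subgroup.Normal.map inferInstance π (QuotientGroup.mk'_surjective M)
  have hCne : C.map π ≠ ⊥ := by
    intro h0
    rw [Subgroup.map_eq_bot_iff, QuotientGroup.ker_mk'] at h0
    have e : C.index = M.index := congrArg Subgroup.index (le_antisymm h0 hMC)
    exact Nat.not_even_iff_odd.mpr (show Odd C.index from hCodd) (even_iff_two_dvd.mpr (e ▸ hev))
  obtain ⟨A, hAn, hA1, hAle, hAmin⟩ := MinNormal.exists_minimal_normal_le (C.map π) hCne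
  haveI := hAn
  haveI : Group.IsSolvable (G ⧸ M) := inferInstance
  obtain ⟨-, r, hr, -, hAr⟩ := MinNormal.elementary_abelian' A hA1 hAmin
  haveI := Fact.mk hr
  have hr2 : r ≠ 2 := by
    rintro rfl
    exact hA1 (le_bot_iff.mp (PSolv.pCore_quotient_eq_bot 2 G ▸ PSolv.le_pCore hAn hAr))
  set K := A.comap π with hK
  haveI : K.Normal := hAn.comap _
  have hMK : M ≤ K := fun g hg => by
    rw [hK, mem_comap, show π g = 1 from (QuotientGroup.eq_one_iff g).mpr hg]; exact one_mem _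
  have hKC : K ≤ C := by
    refine (comap_mono hAle).trans ?_
    rw [comap_map_eq, QuotientGroup.ker_mk', sup_eq_left.mpr hMC]
  obtain ⟨i, hi⟩ := hAr.exists_card_eq
  have hrel : M.relIndex K = r ^ i := by
    rw [← hi, ← PSolv.card_map_mk_eq_relIndex M K, hK,
      map_comap_eq_self_of_surjective (QuotientGroup.mk'_surjective M)]
  obtain ⟨P₀⟩ : Nonempty (Sylow r K) := inferInstance
  set P := (P₀ : Subgroup K).map K.subtype with hP
  have hKP : M ⊔ P = K := sup_sylow_eq hMK hrel P₀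
  have hPr : IsPGroup r P := P₀.isPGroup'.map _
  have hdisj := IsPGroup.disjoint_of_ne r 2 hr2 P M hPr hMp
  have hP1 : P ≠ ⊥ := by
    intro h0
    refine hA1 ?_
    rw [← map_comap_eq_self_of_surjective (QuotientGroup.mk'_surjective M) A, ← hK, ← hKP, h0,
      sup_bot_eq, QuotientGroup.map_mk'_self]
  have hnc : ¬ M ≤ centralizer (P : Set G) := by
    intro hle
    refine hP1 (le_bot_iff.mp fun g hg => Subgroup.disjoint_def.mp hdisj hg ?_)
    refine PSolv.centralizer_pCore_le (PSolv.isPSolvable_of_isSolvable h.solv) hO ?_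
    exact mem_centralizer_iff.mpr fun m hm => (mem_centralizer_iff.mp (hle hm) g hg).symm
  set L := normalizer (P : Set G) with hLdef
  have hsup : M ⊔ L = ⊤ := by
    refine top_le_iff.mp ((Sylow.normalizer_sup_eq_top P₀).ge.trans (sup_le le_sup_right ?_))
    rw [← hKP]
    exact sup_le le_sup_left (le_normalizer.trans le_sup_right)
  have hcentN : N ≤ centralizer (P : Set G) := fun z hz => mem_centralizer_iff.mpr fun g hg =>
    (mem_centralizer_iff.mp (hKC (map_subtype_le _ hg)) z hz).symm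
  have hNL : N ≤ L := fun z hz => centralizer_le_normalizer _ (hcentN hz)
  have htrans : ∀ z ∈ N, ∀ z' ∈ N, z ≠ 1 → z' ≠ 1 → ∃ l ∈ L, l * z * l⁻¹ = z' := by
    intro z hz z' hz' hz1 hz'1
    obtain ⟨g, hg⟩ := isConj_iff.mp (h.conj z z' hz1 (hsq z hz) hz'1 (hsq z' hz'))
    have hgtop : g ∈ M ⊔ L := hsup ▸ mem_top g
    rw [← SetLike.mem_coe, normal_mul] at hgtop
    obtain ⟨m, hm, l, hl, rfl⟩ := Set.mem_mul.mp hgtop
    refine ⟨l, hl, ?_⟩
    have hlz : l * z * l⁻¹ ∈ N := hN.conj_mem z hz l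
    have hm' := mem_centralizer_iff.mp (hMC hm) _ hlz
    rw [show m * l * z * (m * l)⁻¹ = m * (l * z * l⁻¹) * m⁻¹ by group, ← hm',
      mul_inv_cancel_right] at hg
    exact hg
  -- `L` is proper and inherits the hypotheses
  have hLne : L ≠ ⊤ := by
    intro hLtop
    obtain ⟨j, hj⟩ := hPr.exists_card_eq
    refine hP1 (le_bot_iff.mp (hO ▸ PSolv.le_pPrimeCore (normalizer_eq_top_iff.mp hLtop) ?_))
    rw [hj]
    exact Nat.Coprime.pow_left j ((Nat.coprime_primes hr Nat.prime_two).mpr hr2)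
  have hLhyp : Hyp L := by
    refine ⟨inferInstance, fun x y hx hx2 hy hy2 => ?_, ?_⟩
    · obtain ⟨l, hl, hlxy⟩ := htrans _ (hall _ (congrArg Subtype.val hx2)) _
        (hall _ (congrArg Subtype.val hy2)) (fun e => hx (Subtype.ext e)) (fun e => hy (Subtype.ext e))
      exact isConj_iff.mpr ⟨⟨l, hl⟩, Subtype.ext hlxy⟩
    · obtain ⟨x, y, hxy, hne, hx, hx2, hy, hy2⟩ := h.two
      exact ⟨⟨x, hNL (hall x hx2)⟩, ⟨y, hNL (hall y hy2)⟩, Subtype.ext hxy,
        fun e => hne (congrArg Subtype.val e), fun e => hx (congrArg Subtype.val e), Subtype.ext hx2,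
        fun e => hy (congrArg Subtype.val e), Subtype.ext hy2⟩
  have hl := ih L hLne hLhyp
  -- the moved 2-group
  obtain ⟨Q, hQ, hQmin⟩ := Set.exists_min_image
    {Q : Subgroup G | Q.Normal ∧ IsPGroup 2 Q ∧ ¬ Q ≤ centralizer (P : Set G)}
    (fun Q => Nat.card Q) (Set.toFinite _) ⟨M, inferInstance, hMp, hnc⟩
  obtain ⟨hQn, hQp, hQc⟩ := hQ
  haveI := hQn
  have hsqQ : ∀ g ∈ Q, g ^ 2 ∈ centralizer (P : Set G) := by
    intro g hg
    set R := (frattini Q).map Q.subtype with hR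
    haveI : R.Normal := Cores.normal_map_subtype_of_characteristic _
    have hgR : g ^ 2 ∈ R := ⟨(⟨g, hg⟩ : Q) ^ 2, by
      rw [PGroup.frattini_eq_closure_sq hQp]; exact Subgroup.subset_closure ⟨⟨g, hg⟩, rfl⟩, rfl⟩
    by_contra hnot
    have hRQ : R ≤ Q := map_subtype_le _
    have heq : R = Q := eq_of_le_of_card_ge hRQ
      (hQmin R ⟨inferInstance, hQp.to_le hRQ, fun hle => hnot (hle hgR)⟩)
    haveI : Nontrivial Q := (nontrivial_iff_ne_bot Q).mpr fun h0 => hQc (h0 ▸ bot_le)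
    obtain hb | ⟨K', hK', -⟩ := eq_top_or_exists_le_coatom (⊥ : Subgroup Q)
    · exact bot_ne_top hb
    · have htop : frattini Q = ⊤ := map_injective Q.subtype_injective (by
        rw [← hR, heq, ← MonoidHom.range_eq_map, range_subtype])
      exact hK'.1 (top_le_iff.mp (htop ▸ frattini_le_coatom hK'))
  let c : Cfg G :=
    { N := N
      P := P
      Q := Q
      normalN := hN
      normalQ := hQn
      sq := hsq
      all := hall
      big := hbig
      pgQ := hQp
      r := r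
      primeR := hr
      r_ne := hr2
      pgP := hPr
      centN := hcentN
      centQ := fun g hg z hz => (mem_centralizer_iff.mp (h2el Q hQp hg) z hz).symm
      sqQ := hsqQ
      notCent := hQc
      trans := htrans }
  -- square roots normalised by a Sylow normaliser
  obtain ⟨R₀⟩ : Nonempty (Sylow 2 L) := inferInstance
  set R := (R₀ : Subgroup L).map L.subtype with hR
  have hRp : IsPGroup 2 R := R₀.isPGroup'.map _
  haveI : (N.subgroupOf L).Normal := hN.subgroupOf L
  have hNR : N ≤ R := by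
    have h1 : N.subgroupOf L ≤ (R₀ : Subgroup L) :=
      (PSolv.le_pCore (p := 2) inferInstance (hpN.of_equiv (subgroupOfEquivOfLe hNL).symm)).trans
        (PSolv.pCore_le_sylow R₀)
    intro z hz
    exact ⟨⟨z, hNL hz⟩, h1 hz, rfl⟩
  set ν := QuotientGroup.mk' N
  have hker : ∀ g : G, ν g = 1 ↔ g ∈ N := fun g => QuotientGroup.eq_one_iff g
  set Rb := R.map ν with hRb
  have hRbp : IsPGroup 2 Rb := hRp.map _
  haveI : Nontrivial Rb := by
    rw [nontrivial_iff_ne_bot, hRb, Ne, Subgroup.map_eq_bot_iff, QuotientGroup.ker_mk']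
    intro hle
    have e : R.relIndex L = (R₀ : Subgroup L).index := by
      rw [hR, Subgroup.relIndex, Subgroup.subgroupOf,
        comap_map_eq_self_of_injective L.subtype_injective]
    have hd : M.index ∣ (R₀ : Subgroup L).index := by
      rw [← relIndex_top_right, ← hsup, sup_comm, relIndex_sup_right, ← e]
      exact (relIndex_dvd_of_le_left L hNM).trans (relIndex_dvd_of_le_left L hle)
    exact R₀.not_dvd_index (hev.trans hd)
  let Eb : Subgroup (G ⧸ N) :=
    { carrier := {x | x ∈ Rb ∧ x * x = 1 ∧ ∀ y ∈ Rb, x * y = y * x}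
      one_mem' := ⟨one_mem _, one_mul 1, fun y _ => by rw [one_mul, mul_one]⟩
      mul_mem' := fun {a b} ha hb => ⟨mul_mem ha.1 hb.1, by
          rw [show a * b * (a * b) = a * (b * a) * b by simp [mul_assoc], ← ha.2.2 b hb.1]
          calc a * (a * b) * b = (a * a) * (b * b) := by simp [mul_assoc]
            _ = 1 := by rw [ha.2.1, hb.2.1, one_mul],
        fun y hy => by rw [mul_assoc, hb.2.2 y hy, ← mul_assoc, ha.2.2 y hy, mul_assoc]⟩
      inv_mem' := fun {a} ha => by
        rw [inv_eq_of_mul_eq_one_right ha.2.1]; exact ha }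
  set E := R ⊓ Eb.comap ν with hE
  have hRC : R ≤ C := h2el R hRp
  have hE2 : ∀ t ∈ E, t ^ 2 ∈ N := fun t ht => by
    rw [← hker, map_pow, pow_two]; exact ht.2.2.1
  obtain ⟨t₀, ht₀, ht₀N⟩ : ∃ t ∈ E, t ∉ N := by
    haveI := hRbp.center_nontrivial
    have hd2 : 2 ∣ Nat.card (center Rb) := by
      obtain ⟨k, hk⟩ := (hRbp.to_subgroup (center Rb)).exists_card_eq
      have : 1 < Nat.card (center Rb) := Finite.one_lt_card
      rw [hk] at this ⊢
      exact dvd_pow_self 2 (by rintro rfl; norm_num at this)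
    obtain ⟨⟨⟨x, hx⟩, hxc⟩, hxo⟩ := exists_prime_orderOf_dvd_card' 2 hd2
    rw [← orderOf_coe, ← orderOf_coe] at hxo
    obtain ⟨t, ht, rfl⟩ := hx
    refine ⟨t, ⟨ht, ⟨⟨t, ht, rfl⟩, ?_, fun y hy => ?_⟩⟩, fun hn => ?_⟩
    · rw [← pow_two]; exact orderOf_dvd_iff_pow_eq_one.mp hxo.dvd
    · exact (congrArg Subtype.val (mem_center_iff.mp hxc ⟨y, hy⟩)).symm
    · change orderOf (ν t) = 2 at hxo
      rw [(hker t).mpr hn, orderOf_one] at hxo
      norm_num at hxo
  refine c.false_of_roots E (inf_le_left.trans (map_subtype_le _)) (inf_le_left.trans hRC) hE2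
    (fun t ht u hu => ?_) (fun z hz => ?_)
  · show ⁅t, u⁆ ∈ N
    rw [← hker, map_commutatorElement, commutatorElement_eq_one_iff_mul_comm]
    exact ht.2.2.2 _ hu.2.1
  rcases eq_or_ne z 1 with rfl | hz1
  · exact ⟨1, one_mem _, one_pow 2⟩
  have ht₀1 : t₀ ^ 2 ≠ 1 := fun e => ht₀N (hall _ e)
  obtain ⟨l, hlL, hlz⟩ := htrans _ (hE2 _ ht₀) z hz ht₀1 hz1
  obtain ⟨o, ho, n, hn, heq⟩ := OddPre.PLengthOne.exists_mul_normalizer hl R₀ ⟨l, hlL⟩
  have heq' : l = (o : G) * (n : G) := congrArg Subtype.val heq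
  have hoN : ∀ w ∈ N, (o : G) * w * (o : G)⁻¹ = w := by
    intro w hw
    have hd : (N.subgroupOf L) ⊓ pPrimeCore 2 L = ⊥ := by
      refine PSolv.inf_eq_bot_of_coprime_card ?_
      obtain ⟨k, hk⟩ := (hpN.of_equiv (subgroupOfEquivOfLe hNL).symm).exists_card_eq
      rw [hk]
      exact Nat.Coprime.pow_left k (PSolv.coprime_card_pPrimeCore 2 L).symm
    have hc := OddPre.PLengthOne.commute_of_conj_mem hd ho (y := (⟨w, hNL hw⟩ : L))
      (show w ∈ N from hw) (show (o : G) * w * (o : G)⁻¹ ∈ N from hN.conj_mem w hw _)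
    have hc' : w * (o : G) = (o : G) * w := congrArg Subtype.val hc
    rw [← hc', mul_inv_cancel_right]
  have hnz : (n : G) * t₀ ^ 2 * (n : G)⁻¹ = z := by
    rw [← hlz, heq']
    have hw : (n : G) * t₀ ^ 2 * (n : G)⁻¹ ∈ N := hN.conj_mem _ (hE2 _ ht₀) _
    conv_lhs => rw [← hoN _ hw]
    group
  have hnR : ∀ x ∈ R, (n : G) * x * (n : G)⁻¹ ∈ R := by
    rintro _ ⟨x, hx, rfl⟩
    exact ⟨n * x * n⁻¹, (mem_normalizer_iff.mp hn x).mp hx, rfl⟩
  have hnR' : ∀ x ∈ R, (n : G)⁻¹ * x * (n : G) ∈ R := by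
    rintro _ ⟨x, hx, rfl⟩
    exact ⟨n⁻¹ * x * n, (mem_normalizer_iff''.mp hn x).mp hx, rfl⟩
  refine ⟨(n : G) * t₀ * (n : G)⁻¹, ⟨hnR _ ht₀.1, ⟨_, hnR _ ht₀.1, rfl⟩, ?_, ?_⟩, by
    rw [conj_pow, hnz]⟩
  · rw [← pow_two, ← map_pow, hker, conj_pow]
    exact hN.conj_mem _ (hE2 _ ht₀) _
  · rintro _ ⟨y, hy, rfl⟩
    have h1 : ν t₀ * ν ((n : G)⁻¹ * y * n) = ν ((n : G)⁻¹ * y * n) * ν t₀ :=
      ht₀.2.2.2 _ ⟨_, hnR' y hy, rfl⟩
    calc ν ((n : G) * t₀ * (n : G)⁻¹) * ν y
        = ν n * (ν t₀ * ν ((n : G)⁻¹ * y * n)) * ν (n : G)⁻¹ := by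
          simp only [← map_mul]; congr 1; group
      _ = ν n * (ν ((n : G)⁻¹ * y * n) * ν t₀) * ν (n : G)⁻¹ := by rw [h1]
      _ = ν y * ν ((n : G) * t₀ * (n : G)⁻¹) := by
          simp only [← map_mul]; congr 1; group

end

theorem pLength_aux : ∀ (m : ℕ) (G : Type u) [Group G] [Finite G], Nat.card G ≤ m → Hyp G →
    PLengthLE 2 1 G := by
  intro m
  induction m with
  | zero => intro G _ _ hm _; exact absurd hm (Nat.not_le.mpr Nat.card_pos)
  | succ m ih =>
    intro G _ _ hm h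
    haveI : Fact (Nat.Prime 2) := ⟨Nat.prime_two⟩
    by_cases hO : pPrimeCore 2 G = ⊥
    · have hodd := h.odd_index_pCore hO (fun L hL hLh => ih L (by
        have h1 : Nat.card L * L.index = Nat.card G := L.card_mul_index
        have h2 : 1 < L.index :=
          lt_of_le_of_ne (Nat.pos_of_ne_zero index_ne_zero_of_finite) fun e =>
            hL (index_eq_one.mp e.symm)
        have h3 : 0 < Nat.card L := Nat.card_pos
        nlinarith) hLh)
      haveI : (pCore 2 G).Normal := (haveI := PSolv.pCore_characteristic 2 G; inferInstance)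
      refine PLength.pLengthLE_add (pCore 2 G) (a := 1) (b := 0)
        (PLength.pLengthLE_of_isPGroup (PSolv.isPGroup_pCore 2 G)) ?_
      refine PLength.pLengthLE_zero_of_coprime ?_
      rw [← index_eq_card]
      exact Nat.coprime_two_right.mpr hodd
    · haveI : (pPrimeCore 2 G).Normal :=
        (haveI := PSolv.pPrimeCore_characteristic 2 G; inferInstance)
      have hK := PSolv.coprime_card_pPrimeCore 2 G
      have hlt : Nat.card (G ⧸ pPrimeCore 2 G) ≤ m := by
        have h1 := card_eq_card_quotient_mul_card_subgroup (pPrimeCore 2 G)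
        have h2 : 1 < Nat.card (pPrimeCore 2 G) := (one_lt_card_iff_ne_bot _).mpr hO
        have h3 : 0 < Nat.card (G ⧸ pPrimeCore 2 G) := Nat.card_pos
        nlinarith
      exact PLength.pLengthLE_add (pPrimeCore 2 G) (a := 0) (b := 1)
        (PLength.pLengthLE_zero_of_coprime hK) (ih _ hlt (h.quotient _ hK))

theorem pLength {G : Type u} [Group G] [Finite G] (h : Hyp G) : PLengthLE 2 1 G :=
  pLength_aux (Nat.card G) G le_rfl h

end Cfsg.Agent.OneInvClass
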